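import Cfsg.Agent.GTwoTwoUniq80.Tools

/-!
The principal `7`-block of a simple group of order `6048` with `N(P₇) = 7 : 3`: its degrees are
`1, 6, 27, 32, 32`.
-/

set_option autoImplicit false

namespace CfsgLib.GTwoTwoUniq80

open Cfsg CfsgLib.Chars CfsgLib.PrimeGram
open scoped ComplexConjugate

/-- A group of order `6048` as in the statements to come. -/
structure Small (N : Type*) [Group N] : Prop where
  card : Nat.card N = 6048
  noNine : ∀ g : N, orderOf g ≠ 9
  seven : ∀ P : Sylow 7 N, Nat.card (Subgroup.centralizer ((P : Subgroup N) : Set N)) = 7 ∧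
    Nat.card (Subgroup.normalizer ((P : Subgroup N) : Set N)) = 21

/-- The block: `α` and `β` nonprincipal in `X`, `θ` exceptional. -/
structure Trio (N : Type*) [Group N] (x : N) (α β θ : IrrCharacter N) (va vb ε : ℤ) : Prop where
  order : orderOf x = 7
  sylow : ∃ P : Sylow 7 N, Subgroup.zpowers x = (P : Subgroup N)
  aNe : α ≠ oneChar N
  bNe : β ≠ oneChar N
  tNe : θ ≠ oneChar N
  rel : ∀ g : N, ¬ 7 ∣ orderOf g →
    (ε : ℂ) * (θ : N → ℂ) g = 1 + (va : ℂ) * (α : N → ℂ) g + (vb : ℂ) * (β : N → ℂ) g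
  pairs : ∀ g h : N, ¬ 7 ∣ orderOf g → ¬ 7 ∣ orderOf h →
    (Nat.card {q : N × N // q.1 * g * q.1⁻¹ * (q.2 * h * q.2⁻¹) = x} : ℂ) =
      6048 * (1 + (va : ℂ) * ((α : N → ℂ) g * (α : N → ℂ) h) / (charDegree (α : N → ℂ) : ℂ) +
        (vb : ℂ) * ((β : N → ℂ) g * (β : N → ℂ) h) / (charDegree (β : N → ℂ) : ℂ) -
        (ε : ℂ) * ((θ : N → ℂ) g * (θ : N → ℂ) h) / (charDegree (θ : N → ℂ) : ℂ))

variable {N : Type*} [Group N]

/-- Interchange `α` and `β`. -/
theorem Trio.swap {x : N} {α β θ : IrrCharacter N} {va vb ε : ℤ} (T : Trio N x α β θ va vb ε) :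
    Trio N x β α θ vb va ε :=
  ⟨T.order, T.sylow, T.bNe, T.aNe, T.tNe, fun g hg => by rw [T.rel g hg]; ring,
    fun g h hg hh => by rw [T.pairs g h hg hh]; ring⟩

/-- The degrees allowed by divisibility and congruence modulo seven. -/
theorem degree_mem : ∀ d ∈ Finset.range 78, d ∣ 6048 → 2 ≤ d →
    ((d % 7 = 1 ∨ d % 7 = 6) → d ∈ ({6, 8, 27, 36, 48} : Finset ℕ)) ∧
      ((d % 7 = 3 ∨ d % 7 = 4) → d ∈ ({3, 4, 18, 24, 32} : Finset ℕ)) := by decide +kernel

set_option synthInstance.maxSize 4000 in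
/-- The solutions of the degree equation. -/
theorem degree_cases : ∀ va ∈ ([1, -1] : List ℤ), ∀ vb ∈ ([1, -1] : List ℤ),
    ∀ ε ∈ ([1, -1] : List ℤ), ∀ a ∈ ([6, 8, 27, 36, 48] : List ℕ),
    ∀ b ∈ ([6, 8, 27, 36, 48] : List ℕ), ∀ t ∈ ([3, 4, 18, 24, 32] : List ℕ),
      (a : ℤ) % 7 = va % 7 → (b : ℤ) % 7 = vb % 7 → (t : ℤ) % 7 = ε * 3 % 7 →
      ε * (t : ℤ) = 1 + va * a + vb * b → a * a + b * b + 2 * (t * t) < 6048 → a ≤ b →
      (t = 3) ∨ (va = 1 ∧ vb = -1 ∧ ε = -1 ∧ a = 8 ∧ b = 27 ∧ t = 18) ∨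
        (va = -1 ∧ vb = -1 ∧ ε = -1 ∧ a = 6 ∧ b = 27 ∧ t = 32) := by decide +kernel

open scoped Classical

variable [Finite N] [IsSimpleGroup N]

theorem Small.noncomm (S : Small N) : ¬ IsMulCommutative N :=
  CfsgLib.SmallSimple.not_comm_of_card_not_prime (by rw [S.card]; norm_num)

theorem exists_trio (S : Small N) : ∃ (x : N) (α β θ : IrrCharacter N) (va vb ε : ℤ),
    Trio N x α β θ va vb ε ∧
    ((charDegree (θ : N → ℂ) = 3) ∨
      (va = 1 ∧ vb = -1 ∧ ε = -1 ∧ charDegree (α : N → ℂ) = 8 ∧ charDegree (β : N → ℂ) = 27 ∧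
        charDegree (θ : N → ℂ) = 18) ∨
      (va = -1 ∧ vb = -1 ∧ ε = -1 ∧ charDegree (α : N → ℂ) = 6 ∧ charDegree (β : N → ℂ) = 27 ∧
        charDegree (θ : N → ℂ) = 32)) := by
  haveI : Fact (Nat.Prime 7) := ⟨by norm_num⟩
  haveI := Fintype.ofFinite N
  have hG := S.noncomm
  obtain ⟨P⟩ := (inferInstance : Nonempty (Sylow 7 N))
  obtain ⟨hC, hN⟩ := S.seven P
  have hP : Nat.card (P : Subgroup N) = 7 := by
    rw [Sylow.card_eq_multiplicity, S.card]
    have h : (6048 : ℕ).factorization 7 = 1 := by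
      rw [show 6048 = 7 * 864 by norm_num, Nat.factorization_mul (by norm_num) (by norm_num),
        Finsupp.add_apply, (by norm_num : Nat.Prime 7).factorization_self,
        Nat.factorization_eq_zero_of_not_dvd (by norm_num : ¬ 7 ∣ 864)]
    rw [h]; norm_num
  have he : (Subgroup.centralizer ((P : Subgroup N) : Set N)).relIndex
      (Subgroup.normalizer ((P : Subgroup N) : Set N)) = 3 := by
    have h := relIndex_mul_centralizer (P : Subgroup N)
    rw [hC, hN] at h
    omega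
  obtain ⟨-, x, X, Y, εX, ε, hz, D⟩ := exists_blockData hG P hP 3 (by norm_num) he
  obtain ⟨-, hCx⟩ := setup_bot D.order hz hC
  obtain ⟨α, β, hab, hXe⟩ := Finset.card_eq_two.mp (show (X.erase (oneChar N)).card = 2 by
    rw [Finset.card_erase_of_mem D.oneX, D.cardX])
  obtain ⟨θ, θ', hθθ', hY⟩ := Finset.card_eq_two.mp (show Y.card = 2 by rw [D.cardY])
  have hθ : θ ∈ Y := by rw [hY]; simp
  have hα' : α ∈ X.erase (oneChar N) := by rw [hXe]; simp
  have hβ' : β ∈ X.erase (oneChar N) := by rw [hXe]; simp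
  have hαX := Finset.mem_of_mem_erase hα'
  have hβX := Finset.mem_of_mem_erase hβ'
  have hαne := Finset.ne_of_mem_erase hα'
  have hβne := Finset.ne_of_mem_erase hβ'
  have hθne : θ ≠ oneChar N := fun h => Finset.disjoint_left.mp D.disj D.oneX (h ▸ hθ)
  have hone : charDegree (oneChar N : N → ℂ) = 1 := charDegree_linChar 1
  have sumX : ∀ f : IrrCharacter N → ℂ, ∑ χ ∈ X, f χ = f (oneChar N) + f α + f β := fun f => by
    rw [← Finset.add_sum_erase X f D.oneX, hXe, Finset.sum_pair hab, add_assoc]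
  have hrel : ∀ g : N, ¬ 7 ∣ orderOf g → (ε : ℂ) * (θ : N → ℂ) g =
      1 + (εX α : ℂ) * (α : N → ℂ) g + (εX β : ℂ) * (β : N → ℂ) g := fun g hg => by
    rw [D.rel θ hθ g hg, sumX, D.signOne, oneChar_apply]; push_cast; ring
  have hsame : ∀ g : N, ¬ 7 ∣ orderOf g → (θ' : N → ℂ) g = (θ : N → ℂ) g := fun g hg => by
    have h := (D.rel θ' (by rw [hY]; simp) g hg).trans (D.rel θ hθ g hg).symm
    rcases D.sign with e | e <;> rw [e] at h <;> simpa using h
  have h1 : ¬ 7 ∣ orderOf (1 : N) := by simp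
  have hdθ : charDegree (θ' : N → ℂ) = charDegree (θ : N → ℂ) := by
    have h := hsame 1 h1
    rw [← coe_charDegree, ← coe_charDegree] at h
    exact_mod_cast h
  -- values at the inverse of `x`
  have hx1 : x ≠ 1 := fun h => by have := D.order; rw [h, orderOf_one] at this; norm_num at this
  have hinv : ∀ χ : IrrCharacter N, (χ : N → ℂ) x⁻¹ = conj ((χ : N → ℂ) x) := fun χ =>
    map_inv_eq_conj (isCharacter_coe χ) x
  have hvX : ∀ χ ∈ X, (χ : N → ℂ) x⁻¹ = (εX χ : ℂ) := fun χ hχ => by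
    have h := D.valueX χ hχ 1 one_ne_zero 1 (Commute.one_left _) h1
    rw [mul_one, pw_one] at h
    rw [hinv, h, map_intCast]
  have hzero : ∀ χ, χ ∉ X → χ ∉ Y → (χ : N → ℂ) x⁻¹ = 0 := fun χ a b => by
    rw [hinv, D.vanish hCx χ a b, map_zero]
  have hsplit : ∀ f : IrrCharacter N → ℂ, (∀ χ, χ ∉ X → χ ∉ Y → f χ = 0) →
      ∑ χ, f χ = f (oneChar N) + f α + f β + (f θ + f θ') := fun f hf => by
    rw [← Finset.sum_subset (Finset.subset_univ (X ∪ Y)) (fun χ _ h => by
      rw [Finset.mem_union, not_or] at h; exact hf χ h.1 h.2), Finset.sum_union D.disj, sumX, hY,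
      Finset.sum_pair hθθ']
  have hdeg : ε * (charDegree (θ : N → ℂ) : ℤ) =
      1 + εX α * (charDegree (α : N → ℂ) : ℤ) + εX β * (charDegree (β : N → ℂ) : ℤ) := by
    have h := hrel 1 h1
    simp only [← coe_charDegree] at h
    exact_mod_cast h
  have hdne : (charDegree (θ : N → ℂ) : ℂ) ≠ 0 := Nat.cast_ne_zero.mpr (charDegree_pos θ).ne'
  have hS : (θ : N → ℂ) x⁻¹ + (θ' : N → ℂ) x⁻¹ = -(ε : ℂ) := by
    have h := sum_irr_map_one_mul x⁻¹
    rw [if_neg (by simpa using hx1), hsplit _ (fun χ a b => by rw [hzero χ a b, mul_zero]),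
      hvX _ D.oneX, hvX _ hαX, hvX _ hβX, D.signOne, ← coe_charDegree (oneChar N), hone,
      ← coe_charDegree α, ← coe_charDegree β, ← coe_charDegree θ, ← coe_charDegree θ', hdθ] at h
    have hd : (ε : ℂ) * (charDegree (θ : N → ℂ) : ℂ) = 1 + (εX α : ℂ) * (charDegree (α : N → ℂ) : ℂ)
        + (εX β : ℂ) * (charDegree (β : N → ℂ) : ℂ) := by exact_mod_cast hdeg
    apply mul_left_cancel₀ hdne
    push_cast at h
    linear_combination h + hd
  have T : Trio N x α β θ (εX α) (εX β) ε := by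
    refine ⟨D.order, ⟨P, hz⟩, hαne, hβne, hθne, hrel, ?_⟩
    intro g h hg hh
    rw [Nat.card_eq_fintype_card, Fintype.card_subtype, sum_pairs_two, S.card, hsplit]
    · rw [hvX _ D.oneX, hvX _ hαX, hvX _ hβX, D.signOne, hsame g hg, hsame h hh,
        ← coe_charDegree (oneChar N), hone, ← coe_charDegree α, ← coe_charDegree β,
        ← coe_charDegree θ, ← coe_charDegree θ', hdθ, oneChar_apply, oneChar_apply]
      push_cast
      linear_combination ((θ : N → ℂ) g * (θ : N → ℂ) h * (6048 / (charDegree (θ : N → ℂ) : ℂ))) * hS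
    · intro χ a b; rw [hzero χ a b]; ring
  -- the degrees
  have hsum : ∀ Z : Finset (IrrCharacter N), ∑ χ ∈ Z, charDegree (χ : N → ℂ) ^ 2 ≤ 6048 := fun Z =>
    S.card ▸ (sum_charDegree_sq (G := N)) ▸ Finset.sum_le_sum_of_subset (Finset.subset_univ Z)
  have hXY : 1 + (charDegree (α : N → ℂ) * charDegree (α : N → ℂ) +
      charDegree (β : N → ℂ) * charDegree (β : N → ℂ) +
      2 * (charDegree (θ : N → ℂ) * charDegree (θ : N → ℂ))) ≤ 6048 := by
    have h := hsum (X ∪ Y)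
    rw [Finset.sum_union D.disj, ← Finset.add_sum_erase X _ D.oneX, hXe, Finset.sum_pair hab, hY,
      Finset.sum_pair hθθ', hone, hdθ] at h
    linarith
  have hrange : ∀ χ : IrrCharacter N, charDegree (χ : N → ℂ) ∈ Finset.range 78 := fun χ => by
    rw [Finset.mem_range]
    have h := charDegree_sq_le χ
    rw [S.card] at h
    nlinarith
  have h2 : ∀ χ : IrrCharacter N, χ ≠ oneChar N → 2 ≤ charDegree (χ : N → ℂ) := fun χ hχ => by
    have h1' := charDegree_pos χ
    by_contra h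
    exact hχ (linear_eq_one hG χ (by omega))
  have hdvd : ∀ χ : IrrCharacter N, charDegree (χ : N → ℂ) ∣ 6048 := fun χ =>
    S.card ▸ charDegree_dvd_card χ
  have hca := D.congrX α hαX
  have hcb := D.congrX β hβX
  have hct := D.congrY θ hθ
  have hA := (degree_mem _ (hrange α) (hdvd α) (h2 α hαne)).1 (by
    rcases D.signX α hαX with e | e <;> rw [e] at hca <;> push_cast at hca <;> omega)
  have hB := (degree_mem _ (hrange β) (hdvd β) (h2 β hβne)).1 (by
    rcases D.signX β hβX with e | e <;> rw [e] at hcb <;> push_cast at hcb <;> omega)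
  have hT := (degree_mem _ (hrange θ) (hdvd θ) (h2 θ hθne)).2 (by
    rcases D.sign with e | e <;> rw [e] at hct <;> push_cast at hct <;> omega)
  have hsa : εX α ∈ ([1, -1] : List ℤ) := by simpa using D.signX α hαX
  have hsb : εX β ∈ ([1, -1] : List ℤ) := by simpa using D.signX β hβX
  have hse : ε ∈ ([1, -1] : List ℤ) := by simpa using D.sign
  rcases le_total (charDegree (α : N → ℂ)) (charDegree (β : N → ℂ)) with hle | hle
  · exact ⟨x, α, β, θ, _, _, ε, T, degree_cases _ hsa _ hsb _ hse _ (by simpa using hA) _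
      (by simpa using hB) _ (by simpa using hT) hca hcb (by simpa using hct) hdeg (by omega) hle⟩
  · exact ⟨x, β, α, θ, _, _, ε, T.swap, degree_cases _ hsb _ hsa _ hse _ (by simpa using hB) _
      (by simpa using hA) _ (by simpa using hT) hcb hca (by simpa using hct)
      (by rw [hdeg]; ring) (by omega) hle⟩

end CfsgLib.GTwoTwoUniq80
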