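import Mathlib.Data.List.Basic
import Mathlib.Data.Nat.Basic

/-!
The candidates for an element interchanging two Sylow `3`-subgroups in a group of order `6048`, as
permutations of `28` points: `27` is one subgroup `P`, and `9 i + 3 j + k` the translate of the other
by `a^i b^j c^k`.
-/

set_option autoImplicit false

namespace CfsgLib.GTwoTwoUniq80

/-- The product of `a^i b^j c^k` and `a^i' b^j' c^k'`, where `c = a⁻¹ b⁻¹ a b` is central. -/
def hm (p q : ℕ) : ℕ :=
  ((p / 9 + q / 9) % 3) * 9 + ((p / 3 % 3 + q / 3 % 3) % 3) * 3 +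
    (p % 3 + q % 3 + 2 * (p / 3 % 3) * (q / 9)) % 3

/-- The inverse of `a^i b^j c^k`. -/
def hinv (p : ℕ) : ℕ :=
  ((3 - p / 9) % 3) * 9 + ((3 - p / 3 % 3) % 3) * 3 + (2 * (p % 3) + 2 * (p / 9) * (p / 3 % 3)) % 3

/-- The action of `k`, with `k a k⁻¹ = b` and `k b k⁻¹ = a b`. -/
def sgTable : List ℕ :=
  [0, 2, 1, 12, 14, 13, 26, 25, 24, 3, 5, 4, 17, 16, 15, 18, 20, 19, 6, 8, 7, 10, 9, 11, 22, 21, 23, 27]

/-- The powers of `k`. -/
def sgPow : ℕ → ℕ → ℕ
  | 0, p => p
  | t + 1, p => sgTable.getD (sgPow t p) 27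

/-- For each point off the centre, its representative `3`, `4` or `5` and the power of `k`. -/
def locTable : List (ℕ × ℕ) :=
  [(0, 0), (0, 0), (0, 0), (0, 0), (1, 0), (2, 0), (1, 4), (2, 4), (0, 4), (0, 7), (2, 7), (1, 7),
    (0, 1), (2, 1), (1, 1), (1, 2), (2, 2), (0, 2), (1, 3), (0, 3), (2, 3), (2, 6), (0, 6), (1, 6),
    (0, 5), (2, 5), (1, 5), (0, 0)]

/-- The candidate with `w k w⁻¹ = k^e` sending `3, 4, 5` to `v₀, v₁, v₂`. -/
def wf (e v₀ v₁ v₂ p : ℕ) : ℕ :=
  if p = 27 then 0 else if p = 0 then 27 else if p ≤ 2 then p else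
    let l := locTable.getD p (0, 0)
    sgPow (e * l.2 % 8) (if l.1 = 0 then v₀ else if l.1 = 1 then v₁ else v₂)

/-- Translation by `h`, fixing `27`. -/
def tr (h p : ℕ) : ℕ := if p < 27 then hm h p else 27

/-- The element `w t⁻¹ w h w`, where `t = w h`; it fixes `27`. -/
def phi (w : ℕ → ℕ) (h p : ℕ) : ℕ := w (tr (hinv (w h)) (w (tr h (w p))))

/-- Equal to some `h k^i`. -/
def affB (f : ℕ → ℕ) : Bool :=
  let c := f 0
  (List.range 8).any fun i => (List.range 27).all fun p => f p == hm c (sgPow i p)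

/-- The points off the centre. -/
def offCentre : List ℕ := (List.range 24).map (· + 3)

/-- The candidates pass both tests only for one choice of the data. -/
def searchOK : Bool :=
  [1, 3, 5, 7].all fun e => [3, 12, 4, 14, 5, 13].all fun v₀ =>
    offCentre.all fun v₁ => offCentre.all fun v₂ =>
      !(affB (phi (wf e v₀ v₁ v₂) 1) && affB (phi (wf e v₀ v₁ v₂) 3)) ||
        (e == 5 && v₀ == 4 && v₁ == 22 && v₂ == 25)

theorem search : searchOK = true := by decide +kernel

end CfsgLib.GTwoTwoUniq80
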