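import Cfsg.Agent.GTwoTwoUniq80.Local
import Cfsg.Agent.GTwoTwoUniq80.Search

/-!
Coordinates: the intersection of two Sylow normalisers is cyclic of order eight, and the points, the
translations, `k` and `w` act as in the table of the search.
-/

set_option autoImplicit false

namespace CfsgLib.GTwoTwoUniq80

open Cfsg MulAction
open scoped Pointwise

theorem sg_lt : ∀ p < 27, sgTable.getD p 27 < 27 := by decide +kernel

theorem sg_top : sgTable.getD 27 27 = 27 := by decide +kernel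

theorem sg_split : ∀ p < 27, sgTable.getD p 27 =
    hm (hm ([0, 3, 6].getD (p / 9) 0) ([0, 12, hm 12 12].getD (p / 3 % 3) 0)) (2 * (p % 3) % 3) := by
  decide +kernel

theorem hm_lt : ∀ p < 27, ∀ q < 27, hm p q < 27 := by decide +kernel

theorem hinv_spec : ∀ p < 27, hinv p < 27 ∧ hm (hinv p) p = 0 := by decide +kernel

theorem fixed_two : ∀ p < 28, sgPow 2 p = p → p = 0 ∨ p = 1 ∨ p = 2 ∨ p = 27 := by decide +kernel

theorem exists_shift : ∀ q ∈ offCentre, ∃ i < 4, sgPow (2 * i) q ∈ [3, 12, 4, 14, 5, 13] := by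
  decide +kernel

theorem loc_spec : ∀ p < 27, 3 ≤ p → (locTable.getD p (0, 0)).1 < 3 ∧
    sgPow (locTable.getD p (0, 0)).2 (3 + (locTable.getD p (0, 0)).1) = p := by decide +kernel

variable {N : Type*} [Group N] [Finite N]

/-- The data read off the action on the Sylow `3`-subgroups. -/
structure Coord (N : Type*) [Group N] (el : ℕ → N) (k w : N) (pt : ℕ → Sylow 3 N)
    (e v₀ v₁ v₂ : ℕ) : Prop where
  pt_inj : ∀ p < 28, ∀ q < 28, pt p = pt q → p = q
  pt_surj : ∀ R, ∃ p < 28, pt p = R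
  el_act : ∀ h < 27, ∀ p < 28, el h • pt p = pt (tr h p)
  k_act : ∀ p < 28, k • pt p = pt (sgTable.getD p 27)
  w_act : ∀ p < 28, w • pt p = pt (wf e v₀ v₁ v₂ p)
  stab : ∀ g : N, g • pt 27 = pt 27 → ∃ h < 27, ∃ i < 8, g = el h * k ^ i
  exp_mem : e ∈ [1, 3, 5, 7]
  zero_mem : v₀ ∈ [3, 12, 4, 14, 5, 13]
  one_mem : v₁ ∈ offCentre
  two_mem : v₂ ∈ offCentre

variable {Q : N → Prop} {D : ThreeData N Q} {P : Sylow 3 N} {z : N}

theorem mem_zpowers_three {y : N} (hy : orderOf y = 3) {x : N} (hx : x ∈ Subgroup.zpowers y)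
    (hx1 : x ≠ 1) : x = y ∨ x = y⁻¹ := by
  obtain ⟨n, hn⟩ := mem_powers_iff_mem_zpowers.mpr hx
  have hn' : y ^ (n % 3) = x := by rw [← hn, ← hy, pow_mod_orderOf]
  rcases (show n % 3 = 0 ∨ n % 3 = 1 ∨ n % 3 = 2 by omega) with e | e | e <;> rw [e] at hn'
  · exact absurd (by rw [← hn', pow_zero]) hx1
  · exact Or.inl (by rw [← hn', pow_one])
  · refine Or.inr ?_
    rw [← hn']
    exact (inv_eq_of_mul_eq_one_right (by rw [← pow_succ', show 2 + 1 = orderOf y by omega,
      pow_orderOf_eq_one])).symm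

/-- Elements of the normaliser of `P` fix the centre. -/
theorem ThreeData.IsCentre.conj_eq (hz : D.IsCentre P z) {g : N}
    (hg : g ∈ Subgroup.normalizer ((P : Subgroup N) : Set N)) :
    g * z * g⁻¹ = z ∨ g * z * g⁻¹ = z⁻¹ := by
  have hmem : g * z * g⁻¹ ∈ (P : Subgroup N) := (Subgroup.mem_normalizer_iff.mp hg z).mp hz.1
  have hne : g * z * g⁻¹ ≠ 1 := fun h => hz.2.1 (by
    calc z = g⁻¹ * (g * z * g⁻¹) * g := by group
      _ = 1 := by rw [h]; group)
  exact mem_zpowers_three (D.order_three hz.1 hz.2.1)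
    ((hz.2.2.2 _ hmem hne).mp ((D.conjInv g z).mpr hz.q)) hne

omit [Finite N] in
theorem ThreeData.IsCentre.commute_zpow (hz : D.IsCentre P z) {u : N} (hu : u ∈ (P : Subgroup N))
    (n : ℤ) : Commute u (z ^ n) :=
  (show Commute u z from hz.2.2.1 u hu).zpow_right n

omit [Finite N] in
theorem ThreeData.IsCentre.zpow_three_mul (hz : D.IsCentre P z) (n : ℤ) : z ^ (3 * n) = 1 := by
  rw [zpow_mul, show z ^ (3 : ℤ) = 1 from by
    rw [show (3 : ℤ) = ((3 : ℕ) : ℤ) from rfl, zpow_natCast]; exact D.cube P z hz.1, one_zpow]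

omit [Finite N] in
theorem conj_zpow_eq (g y : N) (n : ℤ) : g * y ^ n * g⁻¹ = (g * y * g⁻¹) ^ n := by
  rw [conj_zpow]

/-- An element of two-power order normalising `P` and fixing the coset of a noncentral element is
trivial. -/
theorem ThreeData.IsCentre.eq_one_of_coset (hz : D.IsCentre P z) {g : N}
    (hg : g ∈ Subgroup.normalizer ((P : Subgroup N) : Set N)) (hg8 : g ^ 8 = 1) {u : N}
    (hu : u ∈ (P : Subgroup N)) (hu1 : u ∉ Subgroup.zpowers z) {n : ℤ}
    (h : g * u * g⁻¹ = u * z ^ n) : g = 1 := by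
  obtain ⟨m, hm⟩ : ∃ m : ℤ, Commute g (u * z ^ m) := by
    rcases hz.conj_eq hg with hc | hc
    · have hpow : ∀ i : ℕ, g ^ i * u * (g ^ i)⁻¹ = u * z ^ ((i : ℤ) * n) := by
        intro i
        induction i with
        | zero => simp
        | succ i ih =>
          rw [pow_succ', show g * g ^ i * u * (g * g ^ i)⁻¹ = g * (g ^ i * u * (g ^ i)⁻¹) * g⁻¹ by
            group, ih, show g * (u * z ^ ((i : ℤ) * n)) * g⁻¹ =
              g * u * g⁻¹ * (g * z ^ ((i : ℤ) * n) * g⁻¹) by group, h, conj_zpow_eq, hc, mul_assoc,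
            ← zpow_add]
          congr 2; push_cast; ring
      have h8 := hpow 8
      rw [hg8, inv_one, one_mul, mul_one, left_eq_mul] at h8
      have hn : z ^ n = 1 := by
        have h3 := hz.zpow_three_mul (3 * n)
        rw [show n = (3 * (3 * n)) + -((8 : ℕ) : ℤ) * n by push_cast; ring, zpow_add, h3, one_mul,
          neg_mul, zpow_neg, h8, inv_one]
      refine ⟨0, ?_⟩
      rw [hn, mul_one] at h
      show Commute g (u * z ^ (0 : ℤ))
      rw [zpow_zero, mul_one]
      exact mul_inv_eq_iff_eq_mul.mp h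
    · refine ⟨2 * n, ?_⟩
      show g * (u * z ^ (2 * n)) = u * z ^ (2 * n) * g
      refine mul_inv_eq_iff_eq_mul.mp ?_
      rw [show g * (u * z ^ (2 * n)) * g⁻¹ = g * u * g⁻¹ * (g * z ^ (2 * n) * g⁻¹) by group, h,
        conj_zpow_eq, hc, inv_zpow', mul_assoc, ← zpow_add]
      congr 1
      rw [show n + -(2 * n) = 2 * n + 3 * (-n) by ring, zpow_add, hz.zpow_three_mul, mul_one]
  have hy : u * z ^ m ∉ Subgroup.zpowers z := fun h' =>
    hu1 ((Subgroup.mul_mem_cancel_right _ (Subgroup.zpow_mem _ (Subgroup.mem_zpowers z) m)).mp h')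
  have hmem : g ∈ Subgroup.centralizer ({u * z ^ m} : Set N) :=
    Subgroup.mem_centralizer_singleton_iff.mpr hm.eq
  have h9 := Subgroup.orderOf_dvd_natCard _ hmem
  rw [(hz.centralizer_le (mul_mem hu (zpow_mem hz.1 m)) hy).1] at h9
  exact orderOf_eq_one_iff.mp (Nat.dvd_one.mp ((Nat.dvd_gcd h9 (orderOf_dvd_of_pow_eq_one hg8)).trans
    (by norm_num)))

/-- Commutators of `P` lie in the centre. -/
theorem ThreeData.IsCentre.exists_comm (hz : D.IsCentre P z) {a b : N} (ha : a ∈ (P : Subgroup N))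
    (hb : b ∈ (P : Subgroup N)) : ∃ n : ℤ, b * a = a * b * z ^ n := by
  haveI : Fact (Nat.Prime 3) := ⟨Nat.prime_three⟩
  suffices h : a⁻¹ * b⁻¹ * a * b ∈ Subgroup.zpowers z by
    obtain ⟨n, hn⟩ := Subgroup.mem_zpowers_iff.mp h
    refine ⟨-n, ?_⟩
    rw [zpow_neg, hn]; group
  by_cases hab : Commute a b
  · rw [show a⁻¹ * b⁻¹ * a * b = a⁻¹ * b⁻¹ * (a * b) by group, hab.eq]; simp
  have hna : a ∉ Subgroup.zpowers z := fun h => by
    obtain ⟨n, hn⟩ := Subgroup.mem_zpowers_iff.mp h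
    exact hab (hn ▸ (hz.commute_zpow hb n).symm)
  have hnb : b ∉ Subgroup.zpowers z := fun h => by
    obtain ⟨n, hn⟩ := Subgroup.mem_zpowers_iff.mp h
    exact hab (hn ▸ hz.commute_zpow ha n)
  have key : ∀ x y : N, x ∈ (P : Subgroup N) → y ∈ (P : Subgroup N) → y ∉ Subgroup.zpowers z →
      x * y * x⁻¹ ∈ Subgroup.centralizer ({y} : Set N) := by
    intro x y hx hy hny
    obtain ⟨h9, hle⟩ := hz.centralizer_le hy hny
    set C := Subgroup.centralizer ({y} : Set N)
    have h := (C.subgroupOf (P : Subgroup N)).card_mul_index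
    rw [Nat.card_congr (Subgroup.subgroupOfEquivOfLe hle).toEquiv, h9, D.card_sylow P] at h
    haveI hn : (C.subgroupOf (P : Subgroup N)).Normal := Subgroup.normal_of_index_eq_minFac_card (by
      rw [D.card_sylow P, show (C.subgroupOf (P : Subgroup N)).index = 3 by omega,
        show (27 : ℕ) = 3 ^ 3 by norm_num, Nat.Prime.pow_minFac Nat.prime_three (by norm_num)])
    exact hn.conj_mem ⟨y, hy⟩ (Subgroup.mem_centralizer_singleton_iff.mpr rfl) ⟨x, hx⟩
  set Ca := Subgroup.centralizer ({a} : Set N)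
  set Cb := Subgroup.centralizer ({b} : Set N)
  obtain ⟨ha9, -⟩ := hz.centralizer_le ha hna
  obtain ⟨hb9, -⟩ := hz.centralizer_le hb hnb
  have hzI : Subgroup.zpowers z ≤ Ca ⊓ Cb := Subgroup.zpowers_le.mpr
    ⟨Subgroup.mem_centralizer_singleton_iff.mpr (hz.2.2.1 a ha).symm,
      Subgroup.mem_centralizer_singleton_iff.mpr (hz.2.2.1 b hb).symm⟩
  have hI : Ca ⊓ Cb = Subgroup.zpowers z := by
    refine (Subgroup.eq_of_le_of_card_ge hzI ?_).symm
    rw [hz.card_zpowers]
    have hd : Nat.card (Ca ⊓ Cb : Subgroup N) ∣ 3 ^ 2 :=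
      (Subgroup.card_dvd_of_le inf_le_left).trans (dvd_of_eq (by rw [ha9]; norm_num))
    obtain ⟨i, hi, he⟩ := (Nat.dvd_prime_pow Nat.prime_three).mp hd
    rcases Nat.lt_or_ge i 2 with h | h
    · rw [he]; exact (Nat.pow_le_pow_right (by norm_num) (by omega : i ≤ 1)).trans (by norm_num)
    · exfalso
      have h1 : Ca ⊓ Cb = Ca := Subgroup.eq_of_le_of_card_ge inf_le_left
        (by rw [he, ha9, show i = 2 by omega]; norm_num)
      have hmem : a ∈ Cb :=
        (inf_le_right : Ca ⊓ Cb ≤ Cb) (h1.symm ▸ Subgroup.mem_centralizer_singleton_iff.mpr rfl)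
      exact hab (Subgroup.mem_centralizer_singleton_iff.mp hmem)
  rw [← hI]
  refine Subgroup.mem_inf.mpr ⟨?_, ?_⟩
  · have h := key b⁻¹ a (inv_mem hb) ha hna
    rw [inv_inv] at h
    rw [show a⁻¹ * b⁻¹ * a * b = a⁻¹ * (b⁻¹ * a * b) by group]
    exact mul_mem (inv_mem (Subgroup.mem_centralizer_singleton_iff.mpr rfl)) h
  · have h := key a⁻¹ b⁻¹ (inv_mem ha) (inv_mem hb) fun hm => hnb (inv_mem_iff.mp hm)
    rw [inv_inv, Subgroup.mem_centralizer_singleton_iff] at h
    refine mul_mem ?_ (Subgroup.mem_centralizer_singleton_iff.mpr rfl)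
    rw [Subgroup.mem_centralizer_singleton_iff]
    simpa only [inv_inv] using (show Commute (a⁻¹ * b⁻¹ * a) b⁻¹ from h).inv_right.eq

/-- Translations are transitive on the other points. -/
theorem ThreeData.exists_smul (D : ThreeData N Q) (hn : Nat.card (Sylow 3 N) = 28)
    {P R R' : Sylow 3 N} (hR : R ≠ P) (hR' : R' ≠ P) : ∃ h ∈ (P : Subgroup N), h • R = R' := by
  haveI : Fact (Nat.Prime 3) := ⟨Nat.prime_three⟩
  have hfree : ∀ g g' : (P : Subgroup N), g • R = g' • R → g = g' := by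
    intro g g' h
    have hfix : ((g' : N)⁻¹ * g) • R = R := by
      rw [mul_smul, show (g : N) • R = g • R from rfl, h]; exact inv_smul_smul _ _
    by_contra hne
    have hne' : ((g' : N)⁻¹ * g) ≠ 1 := fun e => hne (Subtype.ext (inv_mul_eq_one.mp e).symm)
    have hmem := Sylow.smul_eq_iff_mem_normalizer.mp hfix
    have hp : IsPGroup 3 (Subgroup.zpowers ((g' : N)⁻¹ * g)) :=
      P.isPGroup'.to_le (Subgroup.zpowers_le.mpr (mul_mem (inv_mem g'.2) g.2))
    have heq := R.3 (hp.to_sup_of_normal_right' R.isPGroup' (Subgroup.zpowers_le.mpr hmem)) le_sup_right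
    exact hR (D.trivial_inter (heq ▸ Subgroup.mem_sup_left (Subgroup.mem_zpowers _))
      (mul_mem (inv_mem g'.2) g.2) hne')
  have hne : ∀ g : (P : Subgroup N), g • R ≠ P := fun g e => by
    apply hR
    have hP : g • P = P := Sylow.smul_eq_iff_mem_normalizer.mpr (Subgroup.le_normalizer g.2)
    exact (MulAction.injective g) (e.trans hP.symm)
  let f : ↥(P : Subgroup N) → ({P}ᶜ : Set (Sylow 3 N)) := fun g => ⟨g • R, hne g⟩
  have hbij : Function.Bijective f := by
    refine (Nat.bijective_iff_injective_and_card f).mpr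
      ⟨fun g g' h => hfree g g' (congrArg Subtype.val h), ?_⟩
    rw [D.card_sylow P, Nat.card_coe_set_eq, Set.ncard_compl, Set.ncard_singleton, hn]
  obtain ⟨g, hg⟩ := hbij.2 ⟨R', hR'⟩
  exact ⟨g, g.2, congrArg Subtype.val hg⟩

theorem exists_coord [IsSimpleGroup N] (D : ThreeData N Q) (hN : Nat.card N = 6048) :
    ∃ el k w pt e v₀ v₁ v₂, Coord N el k w pt e v₀ v₁ v₂ := by
  haveI : Fact (Nat.Prime 3) := ⟨Nat.prime_three⟩
  have hn := D.card_sylows hN
  haveI : Nontrivial (Sylow 3 N) := Finite.one_lt_card_iff_nontrivial.mp (by rw [hn]; norm_num)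
  obtain ⟨P⟩ := (inferInstance : Nonempty (Sylow 3 N))
  obtain ⟨R, hRP⟩ := exists_ne P
  obtain ⟨z, hz⟩ := D.exists_isCentre P
  -- the two-point stabiliser
  set A := stabilizer N P with hA
  set K := stabilizer N P ⊓ stabilizer N R with hK
  have hnorm : ∀ g ∈ A, g ∈ Subgroup.normalizer ((P : Subgroup N) : Set N) := fun g hg =>
    Sylow.smul_eq_iff_mem_normalizer.mp hg
  have hPA : ∀ h ∈ (P : Subgroup N), h • P = P := fun h hh =>
    Sylow.smul_eq_iff_mem_normalizer.mpr (Subgroup.le_normalizer hh)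
  have hA216 : Nat.card A = 216 := by
    have h := A.card_mul_index
    rw [hA] at h ⊢
    rw [MulAction.index_stabilizer_of_transitive, hn, hN] at h
    omega
  have hfree : ∀ h ∈ (P : Subgroup N), h • R = R → h = 1 := by
    intro h hh hfix
    by_contra h1
    have hmem := Sylow.smul_eq_iff_mem_normalizer.mp hfix
    have hp : IsPGroup 3 (Subgroup.zpowers h) := P.isPGroup'.to_le (Subgroup.zpowers_le.mpr hh)
    have heq := R.3 (hp.to_sup_of_normal_right' R.isPGroup' (Subgroup.zpowers_le.mpr hmem)) le_sup_right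
    exact hRP (D.trivial_inter (heq ▸ Subgroup.mem_sup_left (Subgroup.mem_zpowers _)) hh h1)
  have hfac : ∀ g : N, g • P = P → ∃ h ∈ (P : Subgroup N), ∃ q ∈ K, g = h * q := by
    intro g hg
    have hgR : g • R ≠ P := fun e => hRP (MulAction.injective g (e.trans hg.symm))
    obtain ⟨h, hh, hhR⟩ := D.exists_smul hn hRP hgR
    refine ⟨h, hh, h⁻¹ * g, ⟨?_, ?_⟩, by group⟩
    · show (h⁻¹ * g) • P = P
      rw [mul_smul, hg, hPA _ (inv_mem hh)]
    · show (h⁻¹ * g) • R = R
      rw [mul_smul, ← hhR, inv_smul_smul]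
  have hK8 : Nat.card K = 8 := by
    let f : ↥(P : Subgroup N) × K → A := fun q => ⟨q.1 * q.2, mul_mem (hPA _ q.1.2) q.2.2.1⟩
    have hbij : Function.Bijective f := by
      constructor
      · rintro ⟨h, q⟩ ⟨h', q'⟩ e
        have e' : (h : N) * q = h' * q' := congrArg Subtype.val e
        have hhh : ((h' : N)⁻¹ * h) = q' * (q : N)⁻¹ := by
          rw [eq_mul_inv_iff_mul_eq, mul_assoc, e', inv_mul_cancel_left]
        have h1 := hfree _ (mul_mem (inv_mem h'.2) h.2) (by
          rw [hhh]; exact (mul_mem q'.2 (inv_mem q.2)).2)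
        have heq : h = h' := Subtype.ext (inv_mul_eq_one.mp h1).symm
        subst heq
        exact Prod.ext rfl (Subtype.ext (mul_left_cancel e'))
      · rintro ⟨g, hg⟩
        obtain ⟨h, hh, q, hq, rfl⟩ := hfac g hg
        exact ⟨(⟨h, hh⟩, ⟨q, hq⟩), rfl⟩
    have h := Nat.card_congr (Equiv.ofBijective f hbij)
    rw [Nat.card_prod, D.card_sylow P, hA216] at h
    omega
  have hpow8 : ∀ g ∈ K, g ^ 8 = 1 := fun g hg =>
    orderOf_dvd_iff_pow_eq_one.mp (hK8 ▸ Subgroup.orderOf_dvd_natCard _ hg)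
  have hfix : ∀ g ∈ K, ∀ u ∈ (P : Subgroup N), u ∉ Subgroup.zpowers z → ∀ n : ℤ,
      g * u * g⁻¹ = u * z ^ n → g = 1 := fun g hg u hu hu1 n h =>
    hz.eq_one_of_coset (hnorm g hg.1) (hpow8 g hg) hu hu1 h
  have hconjP : ∀ g ∈ K, ∀ u ∈ (P : Subgroup N), g * u * g⁻¹ ∈ (P : Subgroup N) := fun g hg u hu =>
    (Subgroup.mem_normalizer_iff.mp (hnorm g hg.1) u).mp hu
  have hconjZ : ∀ g ∈ K, ∀ u, u ∉ Subgroup.zpowers z → g * u * g⁻¹ ∉ Subgroup.zpowers z := by
    intro g hg u hu hmem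
    obtain ⟨n, hn'⟩ := Subgroup.mem_zpowers_iff.mp hmem
    apply hu
    have : u = (g⁻¹ * z * g⁻¹⁻¹) ^ n := by rw [← conj_zpow_eq, hn']; group
    rw [this]
    rcases hz.conj_eq (hnorm _ (inv_mem hg).1) with e | e <;> rw [e]
    · exact zpow_mem (Subgroup.mem_zpowers z) n
    · exact zpow_mem (inv_mem (Subgroup.mem_zpowers z)) n
  -- involutions invert modulo the centre
  have hinvol : ∀ j ∈ K, j * j = 1 → j ≠ 1 → ∀ u ∈ (P : Subgroup N), u ∉ Subgroup.zpowers z →
      ∃ n : ℤ, j * u * j⁻¹ = u⁻¹ * z ^ n := by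
    intro j hj hj2 hj1 u hu hu1
    have hju := hconjP j hj u hu
    by_cases hc : u * (j * u * j⁻¹) ∈ Subgroup.zpowers z
    · obtain ⟨n, hn'⟩ := Subgroup.mem_zpowers_iff.mp hc
      exact ⟨n, by rw [hn']; group⟩
    · exfalso
      obtain ⟨n, hn'⟩ := hz.exists_comm hu hju
      refine hj1 (hfix j hj _ (mul_mem hu hju) hc n ?_)
      rw [show j * (u * (j * u * j⁻¹)) * j⁻¹ = j * u * j⁻¹ * (j * j * u * (j * j)⁻¹) by group, hj2,
        inv_one, one_mul, mul_one, hn']
  -- commuting with its image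
  have hcommsq : ∀ g ∈ K, ∀ u ∈ (P : Subgroup N), u ∉ Subgroup.zpowers z →
      Commute u (g * u * g⁻¹) → g * g = 1 := by
    intro g hg u hu hu1 hc
    obtain ⟨h9, -⟩ := hz.centralizer_le hu hu1
    set C := Subgroup.centralizer ({u} : Set N) with hC
    set T := Subgroup.zpowers u ⊔ Subgroup.zpowers z
    have hzu : Commute z u := (hz.2.2.1 u hu).symm
    -- every element of the centraliser is a product
    have hcover : ∀ y ∈ C, ∃ i j : ℤ, y = u ^ i * z ^ j := by
      let f : Subgroup.zpowers u × Subgroup.zpowers z → C := fun q =>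
        ⟨q.1 * q.2, mul_mem
          ((Subgroup.zpowers_le.mpr (Subgroup.mem_centralizer_singleton_iff.mpr rfl) :
            Subgroup.zpowers u ≤ C) q.1.2)
          ((Subgroup.zpowers_le.mpr (Subgroup.mem_centralizer_singleton_iff.mpr hzu.eq) :
            Subgroup.zpowers z ≤ C) q.2.2)⟩
      have hne : u ≠ 1 := fun e => hu1 (e ▸ one_mem _)
      have hbij : Function.Bijective f := by
        refine (Nat.bijective_iff_injective_and_card f).mpr ⟨?_, ?_⟩
        · rintro ⟨a, b⟩ ⟨a', b'⟩ e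
          have e' : (a : N) * b = a' * b' := congrArg Subtype.val e
          have h1 : ((a' : N)⁻¹ * a) = b' * (b : N)⁻¹ := by
            rw [eq_mul_inv_iff_mul_eq, mul_assoc, e', inv_mul_cancel_left]
          have hmem : ((a' : N)⁻¹ * a) ∈ Subgroup.zpowers z := h1 ▸ mul_mem b'.2 (inv_mem b.2)
          by_cases ha : ((a' : N)⁻¹ * a) = 1
          · have heq : a = a' := Subtype.ext (inv_mul_eq_one.mp ha).symm
            subst heq
            exact Prod.ext rfl (Subtype.ext (mul_left_cancel e'))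
          · exfalso
            apply hu1
            have hm : ((a' : N)⁻¹ * a) ∈ Subgroup.zpowers u := mul_mem (inv_mem a'.2) a.2
            rcases mem_zpowers_three (D.order_three hu hne) hm ha with h | h <;> rw [h] at hmem
            · exact hmem
            · exact inv_mem_iff.mp hmem
        · rw [Nat.card_prod, h9, hz.card_zpowers, Nat.card_zpowers, D.order_three hu hne]
      intro y hy
      obtain ⟨⟨⟨a, ha⟩, ⟨b, hb⟩⟩, e⟩ := hbij.2 ⟨y, hy⟩
      obtain ⟨i, rfl⟩ := Subgroup.mem_zpowers_iff.mp ha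
      obtain ⟨j, rfl⟩ := Subgroup.mem_zpowers_iff.mp hb
      exact ⟨i, j, (congrArg Subtype.val e).symm⟩
    obtain ⟨i, j, hij⟩ := hcover _ (Subgroup.mem_centralizer_singleton_iff.mpr hc.symm.eq)
    have hu3 : u ^ (3 : ℤ) = 1 := by
      rw [show (3 : ℤ) = ((3 : ℕ) : ℤ) from rfl, zpow_natCast]; exact D.cube P u hu
    have hi : u ^ i = u ^ (i % 3) := by
      conv_lhs => rw [← Int.mul_ediv_add_emod i 3, zpow_add, zpow_mul, hu3, one_zpow, one_mul]
    rw [hi] at hij
    rcases (show i % 3 = 0 ∨ i % 3 = 1 ∨ i % 3 = 2 by omega) with e | e | e <;> rw [e] at hij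
    · exact absurd (by rw [hij, zpow_zero, one_mul]; exact zpow_mem (Subgroup.mem_zpowers z) j)
        (hconjZ g hg u hu1)
    · rw [hfix g hg u hu hu1 j (by rw [hij, zpow_one]), one_mul]
    · rw [show u ^ (2 : ℤ) = u⁻¹ from (inv_eq_of_mul_eq_one_right (by
        rw [← zpow_one_add]; norm_num; exact_mod_cast hu3)).symm] at hij
      rcases hz.conj_eq (hnorm g hg.1) with hcz | hcz
      · refine hfix (g * g) (mul_mem hg hg) u hu hu1 0 ?_
        rw [zpow_zero, mul_one, show g * g * u * (g * g)⁻¹ = g * (g * u * g⁻¹) * g⁻¹ by group, hij,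
          show g * (u⁻¹ * z ^ j) * g⁻¹ = (g * u * g⁻¹)⁻¹ * (g * z ^ j * g⁻¹) by group, conj_zpow_eq,
          hcz, hij]
        group
        rw [(hz.commute_zpow hu (-j)).symm.eq, mul_assoc, ← zpow_add, neg_add_cancel, zpow_zero,
          mul_one]
      · refine hfix (g * g) (mul_mem hg hg) u hu hu1 (-j - j) ?_
        rw [show g * g * u * (g * g)⁻¹ = g * (g * u * g⁻¹) * g⁻¹ by group, hij,
          show g * (u⁻¹ * z ^ j) * g⁻¹ = (g * u * g⁻¹)⁻¹ * (g * z ^ j * g⁻¹) by group, conj_zpow_eq,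
          hcz, hij, inv_zpow', mul_inv_rev, inv_inv, ← zpow_neg,
          ((hz.commute_zpow hu (-j)).symm).eq, mul_assoc, ← zpow_add, sub_eq_add_neg]
  -- an element of order eight
  obtain ⟨k₀, hk₀, hk₀4⟩ : ∃ k ∈ K, k ^ 4 ≠ 1 := by
    by_contra hcon
    push_neg at hcon
    obtain ⟨a, ha, ha1⟩ := hz.exists_not_mem
    obtain ⟨b, hb, hab⟩ : ∃ b ∈ (P : Subgroup N), ¬ Commute a b := by
      by_contra h
      push_neg at h
      have hle : (P : Subgroup N) ≤ Subgroup.centralizer ({a} : Set N) := fun v hv =>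
        Subgroup.mem_centralizer_singleton_iff.mpr (h v hv).symm.eq
      have := Subgroup.card_le_of_le hle
      rw [D.card_sylow P, (hz.centralizer_le ha ha1).1] at this
      omega
    have hnotz : ∀ {x y : N}, x ∈ (P : Subgroup N) → ¬ Commute x y → y ∉ Subgroup.zpowers z :=
      fun hx h hm => h (by obtain ⟨i, rfl⟩ := Subgroup.mem_zpowers_iff.mp hm; exact hz.commute_zpow hx i)
    have hfixz : ∀ g ∈ K, ∀ x y : N, x ∈ (P : Subgroup N) → y ∈ (P : Subgroup N) → ¬ Commute x y →
        ∀ x' y' : N, g * x * g⁻¹ = x' → g * y * g⁻¹ = y' →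
        (∀ c : N, Commute x c → Commute y c → y * x = x * y * c → y' * x' = x' * y' * c) →
        g * z * g⁻¹ = z := by
      intro g hg x y hx hy hxy x' y' hx' hy' hrule
      obtain ⟨n, hn'⟩ := hz.exists_comm hx hy
      have h1 : y' * x' = x' * y' * (g * z ^ n * g⁻¹) := by
        rw [← hx', ← hy', show g * y * g⁻¹ * (g * x * g⁻¹) = g * (y * x) * g⁻¹ by group, hn']; group
      have h2 := hrule _ (hz.commute_zpow hx n) (hz.commute_zpow hy n) hn'
      have h3 : g * z ^ n * g⁻¹ = z ^ n := mul_left_cancel (h1.symm.trans h2)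
      have hne : z ^ n ≠ 1 := fun e => hxy (by rw [e, mul_one] at hn'; exact hn'.symm)
      have hg' : Commute g (z ^ n) := mul_inv_eq_iff_eq_mul.mp h3
      rcases mem_zpowers_three (D.order_three hz.1 hz.2.1)
          (zpow_mem (Subgroup.mem_zpowers z) n) hne with e | e <;> rw [e] at hg'
      · rw [hg'.eq, mul_inv_cancel_right]
      · rw [(Commute.inv_right_iff.mp hg').eq, mul_inv_cancel_right]
    have hall : ∀ g ∈ K, g * z * g⁻¹ = z := by
      intro g hg
      rcases eq_or_ne g 1 with rfl | hg1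
      · group
      by_cases hg2 : g * g = 1
      · obtain ⟨n, hn'⟩ := hinvol g hg hg2 hg1 a ha ha1
        obtain ⟨m, hm⟩ := hinvol g hg hg2 hg1 b hb (hnotz ha hab)
        refine hfixz g hg a b ha hb hab _ _ hn' hm fun c hca hcb hc => ?_
        have h1 : b⁻¹ * a⁻¹ = a⁻¹ * b⁻¹ * c := by
          have h2 : a⁻¹ * b⁻¹ = c⁻¹ * (b⁻¹ * a⁻¹) := by
            rw [← mul_inv_rev, hc]; group
          rw [h2, mul_assoc, (hcb.inv_left.mul_left hca.inv_left).eq]
          group
        have hza : Commute (z ^ m) a⁻¹ := ((hz.commute_zpow ha m).inv_left).symm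
        have hzb : Commute (z ^ n) b⁻¹ := ((hz.commute_zpow hb n).inv_left).symm
        have hcz : ∀ i : ℤ, Commute (z ^ i) c := fun i => by
          have hceq : c = (a * b)⁻¹ * (b * a) := by rw [hc]; group
          rw [hceq]
          exact (((hz.commute_zpow ha i).mul_left (hz.commute_zpow hb i)).inv_left.mul_left
            ((hz.commute_zpow hb i).mul_left (hz.commute_zpow ha i))).symm
        calc b⁻¹ * z ^ m * (a⁻¹ * z ^ n) = b⁻¹ * a⁻¹ * (z ^ m * z ^ n) := by
              simp only [mul_assoc]; rw [← mul_assoc (z ^ m) a⁻¹, hza.eq]; simp only [mul_assoc]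
          _ = a⁻¹ * b⁻¹ * (z ^ n * z ^ m) * c := by
              rw [h1, mul_assoc (a⁻¹ * b⁻¹) c, ← ((hcz m).mul_left (hcz n)).eq,
                ((Commute.refl z).zpow_zpow m n).eq]
              simp only [mul_assoc]
          _ = a⁻¹ * z ^ n * (b⁻¹ * z ^ m) * c := by
              simp only [mul_assoc]; rw [← mul_assoc (z ^ n) b⁻¹, hzb.eq]; simp only [mul_assoc]
      · obtain ⟨v, hv⟩ : ∃ v, v = g * a * g⁻¹ := ⟨_, rfl⟩
        have hvP : v ∈ (P : Subgroup N) := hv ▸ hconjP g hg a ha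
        have hncomm : ¬ Commute a v := fun h => hg2 (hcommsq g hg a ha ha1 (hv ▸ h))
        obtain ⟨n, hn'⟩ := hinvol (g * g) (mul_mem hg hg)
          (by rw [← hcon g hg]; simp only [pow_succ, pow_zero, one_mul, mul_assoc]) hg2 a ha ha1
        refine hfixz g hg a v ha hvP hncomm v (a⁻¹ * z ^ n) hv.symm
          (by rw [← hn', hv]; group) fun c hca hcv hc => ?_
        have hzv : Commute (z ^ n) v := (hz.commute_zpow hvP n).symm
        have h2 : a⁻¹ * v = v * a⁻¹ * c := by
          have h3 : a⁻¹ * (v * a) * a⁻¹ = a⁻¹ * (a * v * c) * a⁻¹ := by rw [hc]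
          rw [show a⁻¹ * (v * a) * a⁻¹ = a⁻¹ * v by group,
            show a⁻¹ * (a * v * c) * a⁻¹ = v * (c * a⁻¹) by group] at h3
          rw [h3, ← hca.inv_left.eq, mul_assoc]
        have hcn : Commute c (z ^ n) := by
          have hceq : c = (a * v)⁻¹ * (v * a) := by rw [hc]; group
          rw [hceq]
          exact ((hz.commute_zpow ha n).mul_left (hz.commute_zpow hvP n)).inv_left.mul_left
            ((hz.commute_zpow hvP n).mul_left (hz.commute_zpow ha n))
        calc a⁻¹ * z ^ n * v = a⁻¹ * v * z ^ n := by rw [mul_assoc, hzv.eq, mul_assoc]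
          _ = v * (a⁻¹ * z ^ n) * c := by
              rw [h2, mul_assoc (v * a⁻¹), hcn.eq]; simp only [mul_assoc]
    have hle : K ≤ Subgroup.centralizer ({z} : Set N) := fun g hg => by
      rw [Subgroup.mem_centralizer_singleton_iff]
      exact mul_inv_eq_iff_eq_mul.mp (hall g hg)
    have h := (Subgroup.card_dvd_of_le hle).trans (D.centralizer_centre z (D.order_three hz.1 hz.2.1) hz.q)
    rw [hK8] at h
    norm_num at h
  have horder : ∀ g ∈ K, g ^ 4 ≠ 1 → orderOf g = 8 := fun g hg h4 => by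
    obtain ⟨i, hi, he⟩ := (Nat.dvd_prime_pow Nat.prime_two).mp
      (show orderOf g ∣ 2 ^ 3 from orderOf_dvd_of_pow_eq_one (hpow8 g hg))
    rcases Nat.lt_or_ge i 3 with h | h
    · exfalso
      apply h4
      exact orderOf_dvd_iff_pow_eq_one.mp (he ▸ (pow_dvd_pow 2 (by omega : i ≤ 2)))
    · rw [he, show i = 3 by omega]; norm_num
  have hinvz : ∀ g ∈ K, g ^ 4 ≠ 1 → g * z * g⁻¹ = z⁻¹ := fun g hg h4 => by
    refine (hz.conj_eq (hnorm g hg.1)).resolve_left fun h => ?_
    have hle : Subgroup.zpowers g ≤ Subgroup.centralizer ({z} : Set N) := Subgroup.zpowers_le.mpr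
      (Subgroup.mem_centralizer_singleton_iff.mpr (mul_inv_eq_iff_eq_mul.mp h))
    have h' := (Subgroup.card_dvd_of_le hle).trans
      (D.centralizer_centre z (D.order_three hz.1 hz.2.1) hz.q)
    rw [Nat.card_zpowers, horder g hg h4] at h'
    norm_num at h'
  have hsqne : ∀ g ∈ K, g ^ 4 ≠ 1 → g * g ≠ 1 := fun g _ h4 h =>
    h4 (by rw [show g ^ 4 = (g * g) * (g * g) by simp only [pow_succ, pow_zero, one_mul, mul_assoc], h, one_mul])
  -- the relation
  obtain ⟨k, hk, hk4, u, hu, hu1, t, hrel⟩ : ∃ k ∈ K, k ^ 4 ≠ 1 ∧ ∃ u ∈ (P : Subgroup N),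
      u ∉ Subgroup.zpowers z ∧ ∃ t : ℤ,
        k * (k * u * k⁻¹) * k⁻¹ = u * (k * u * k⁻¹) * z ^ t := by
    obtain ⟨u, hu, hu1⟩ := hz.exists_not_mem
    obtain ⟨v, hv⟩ : ∃ v, v = k₀ * u * k₀⁻¹ := ⟨_, rfl⟩
    have hvP : v ∈ (P : Subgroup N) := hv ▸ hconjP k₀ hk₀ u hu
    have hvz : v ∉ Subgroup.zpowers z := hv ▸ hconjZ k₀ hk₀ u hu1
    have hnc : ¬ Commute u v := fun h => hsqne k₀ hk₀ hk₀4 (hcommsq k₀ hk₀ u hu hu1 (hv ▸ h))
    obtain ⟨n, hn'⟩ := hz.exists_comm hu hvP
    have hne : z ^ n ≠ 1 := fun e => hnc (by rw [e, mul_one] at hn'; exact hn'.symm)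
    -- every element is `u^i v^j z^m`
    have hu3 : u ^ 3 = 1 := D.cube P u hu
    have hv3 : v ^ 3 = 1 := D.cube P v hvP
    have hz3 : z ^ 3 = 1 := D.cube P z hz.1
    let f : Fin 3 × Fin 3 × Fin 3 → (P : Subgroup N) := fun q =>
      ⟨u ^ q.1.val * v ^ q.2.1.val * z ^ q.2.2.val,
        mul_mem (mul_mem (pow_mem hu _) (pow_mem hvP _)) (pow_mem hz.1 _)⟩
    have hbij : Function.Bijective f := by
      refine (Nat.bijective_iff_injective_and_card f).mpr ⟨?_, ?_⟩
      · rintro ⟨i, j, m⟩ ⟨i', j', m'⟩ e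
        have e' : u ^ i.val * v ^ j.val * z ^ m.val = u ^ i'.val * v ^ j'.val * z ^ m'.val :=
          congrArg Subtype.val e
        have hzc : ∀ r : ℕ, Commute (z ^ r) u := fun r => (show Commute z u from (hz.2.2.1 u hu).symm).pow_left r
        have hvu : ∀ r : ℕ, Commute (v ^ r) u → r % 3 = 0 := by
          intro r hr
          by_contra hr0
          apply hnc
          rcases (show r % 3 = 1 ∨ r % 3 = 2 by omega) with h | h
          · rw [← pow_mod_orderOf, D.order_three hvP (fun e => hvz (e ▸ one_mem _)), h, pow_one] at hr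
            exact hr.symm
          · have h4 := hr.pow_left 2
            rw [← pow_mul, ← pow_mod_orderOf, D.order_three hvP (fun e => hvz (e ▸ one_mem _)),
              show r * 2 % 3 = 1 by omega, pow_one] at h4
            exact h4.symm
        have hj : j.val % 3 = j'.val % 3 := by
          have hlt := j.isLt; have hlt' := j'.isLt
          have h1 : v ^ (j.val + (3 - j'.val)) * (z ^ (m.val + (3 - m'.val))) =
              u ^ (i'.val + (3 - i.val)) := by
            have h2 : v ^ j.val * z ^ m.val = u ^ (i'.val + (3 - i.val)) * v ^ j'.val * z ^ m'.val := by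
              have := congrArg (u ^ (3 - i.val) * ·) e'
              simp only [← mul_assoc, ← pow_add] at this
              rw [show 3 - i.val + i.val = 3 by have := i.isLt; omega, hu3, one_mul,
                show 3 - i.val + i'.val = i'.val + (3 - i.val) by omega] at this
              exact this
            have hzv : ∀ r s : ℕ, Commute (z ^ r) (v ^ s) := fun r s =>
              ((show Commute z v from (hz.2.2.1 v hvP).symm).pow_pow r s)
            calc v ^ (j.val + (3 - j'.val)) * z ^ (m.val + (3 - m'.val))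
                = v ^ j.val * z ^ m.val * (v ^ (3 - j'.val) * z ^ (3 - m'.val)) := by
                  rw [pow_add, pow_add]
                  simp only [mul_assoc]
                  rw [← mul_assoc (z ^ m.val) (v ^ (3 - j'.val)), (hzv _ _).eq]
                  simp only [mul_assoc]
              _ = _ := by
                  rw [h2]
                  simp only [mul_assoc]
                  rw [← mul_assoc (z ^ m'.val) (v ^ (3 - j'.val)), (hzv _ _).eq]
                  simp only [mul_assoc, ← pow_add]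
                  rw [show m'.val + (3 - m'.val) = 3 by have := m'.isLt; omega, hz3, mul_one, ← pow_add,
                    show j'.val + (3 - j'.val) = 3 by omega, hv3, mul_one]
          have hc : Commute (v ^ (j.val + (3 - j'.val))) u := by
            have : v ^ (j.val + (3 - j'.val)) =
                u ^ (i'.val + (3 - i.val)) * (z ^ (m.val + (3 - m'.val)))⁻¹ := by
              rw [← h1, mul_inv_cancel_right]
            rw [this]
            exact ((Commute.refl u).pow_left _).mul_left (hzc _).inv_left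
          have := hvu _ hc
          omega
        have hj' : j = j' := Fin.ext (by have := j.isLt; have := j'.isLt; omega)
        subst hj'
        have hi : i = i' := by
          by_contra hii
          apply hu1
          have h1 : (u ^ i'.val)⁻¹ * u ^ i.val = v ^ j.val * z ^ m'.val * (v ^ j.val * z ^ m.val)⁻¹ := by
            rw [eq_mul_inv_iff_mul_eq, mul_assoc, ← mul_assoc (u ^ i.val), e']
            group
          rw [show v ^ j.val * z ^ m'.val * (v ^ j.val * z ^ m.val)⁻¹ =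
              v ^ j.val * (z ^ m'.val * (z ^ m.val)⁻¹) * (v ^ j.val)⁻¹ by group,
            show v ^ j.val * (z ^ m'.val * (z ^ m.val)⁻¹) = z ^ m'.val * (z ^ m.val)⁻¹ * v ^ j.val from
              ((((show Commute v z from hz.2.2.1 v hvP).pow_pow _ _).mul_right
                ((show Commute v z from hz.2.2.1 v hvP).pow_pow _ _).inv_right)).eq,
            mul_inv_cancel_right] at h1
          have hm : (u ^ i'.val)⁻¹ * u ^ i.val ∈ Subgroup.zpowers z := h1 ▸
            mul_mem (pow_mem (Subgroup.mem_zpowers z) _) (inv_mem (pow_mem (Subgroup.mem_zpowers z) _))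
          have hne' : (u ^ i'.val)⁻¹ * u ^ i.val ≠ 1 := fun h => by
            have h' := (inv_mul_eq_one.mp h).symm
            rw [pow_inj_mod, D.order_three hu (fun e => hu1 (e ▸ one_mem _))] at h'
            exact hii (Fin.ext (by have := i.isLt; have := i'.isLt; omega))
          rcases mem_zpowers_three (D.order_three hu (fun e => hu1 (e ▸ one_mem _)))
              (mul_mem (inv_mem (pow_mem (Subgroup.mem_zpowers u) _))
                (pow_mem (Subgroup.mem_zpowers u) _)) hne' with h | h <;> rw [h] at hm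
          · exact hm
          · exact inv_mem_iff.mp hm
        subst hi
        have hm : m = m' := by
          have h' := mul_left_cancel e'
          rw [pow_inj_mod, D.order_three hz.1 hz.2.1] at h'
          exact Fin.ext (by have := m.isLt; have := m'.isLt; omega)
        subst hm
        rfl
      · rw [Nat.card_prod, Nat.card_prod, Nat.card_fin, D.card_sylow P]
    obtain ⟨⟨i, j, m⟩, hq⟩ := hbij.2 ⟨k₀ * v * k₀⁻¹, hconjP k₀ hk₀ v hvP⟩
    have hq' : u ^ i.val * v ^ j.val * z ^ m.val = k₀ * v * k₀⁻¹ := congrArg Subtype.val hq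
    -- the exponent of `u` is one
    have hi : i.val = 1 := by
      have h1 : k₀ * (v * u) * k₀⁻¹ = k₀ * u * k₀⁻¹ * (k₀ * v * k₀⁻¹) * (k₀ * z ^ n * k₀⁻¹) := by
        rw [hn']; group
      rw [show k₀ * (v * u) * k₀⁻¹ = k₀ * v * k₀⁻¹ * (k₀ * u * k₀⁻¹) by group, ← hq', ← hv,
        conj_zpow_eq, hinvz k₀ hk₀ hk₀4, inv_zpow'] at h1
      -- move `v` to the right
      have hcomm : ∀ r : ℕ, v * u ^ r = u ^ r * v * z ^ ((r : ℤ) * n) := by
        intro r
        induction r with
        | zero => simp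
        | succ r ih =>
          rw [pow_succ, ← mul_assoc, ih, mul_assoc (u ^ r * v), ← (hz.commute_zpow hu _).eq,
            ← mul_assoc, mul_assoc (u ^ r), hn', Nat.cast_succ, add_mul, one_mul, add_comm, zpow_add]
          simp only [mul_assoc]
      have hzv : ∀ (r : ℕ) (s : ℤ), Commute (v ^ r) (z ^ s) := fun r s =>
        (hz.commute_zpow hvP s).pow_left r
      have lhs : u ^ i.val * v ^ j.val * z ^ m.val * v = u ^ i.val * v ^ (j.val + 1) * z ^ (m.val : ℤ) := by
        rw [zpow_natCast, mul_assoc _ (z ^ m.val) v,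
          ((show Commute z v from (hz.2.2.1 v hvP).symm).pow_left _).eq, ← mul_assoc, mul_assoc _ (v ^ j.val),
          ← pow_succ]
      have rhs : v * (u ^ i.val * v ^ j.val * z ^ m.val) * z ^ (-n) =
          u ^ i.val * v ^ (j.val + 1) * z ^ ((i.val : ℤ) * n + m.val + -n) := by
        rw [← mul_assoc, ← mul_assoc, hcomm, ← zpow_natCast z m.val, mul_assoc (u ^ i.val * v),
          ← (hzv j.val _).eq, zpow_add, zpow_add, pow_succ']
        simp only [mul_assoc]
      rw [lhs, rhs] at h1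
      have h2 : z ^ ((m : ℕ) : ℤ) = z ^ ((i.val : ℤ) * n + m.val + -n) := mul_left_cancel h1
      have h3 : z ^ (((i.val : ℤ) - 1) * n) = 1 := by
        rw [show ((i.val : ℤ) - 1) * n = ((i.val : ℤ) * n + m.val + -n) + -(m.val : ℤ) by ring,
          zpow_add, ← h2, zpow_neg, mul_inv_cancel]
      by_contra hne1
      apply hne
      have := i.isLt
      rcases (show i.val = 0 ∨ i.val = 2 by omega) with e | e <;> rw [e] at h3 <;> norm_num at h3
      · exact h3
      · exact h3
    rw [hi, pow_one] at hq'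
    rcases (show j.val = 0 ∨ j.val = 1 ∨ j.val = 2 by have := j.isLt; omega) with e | e | e <;>
      rw [e] at hq'
    · exfalso
      rw [pow_zero, mul_one] at hq'
      refine hsqne k₀ hk₀ hk₀4 (hfix _ (mul_mem hk₀ hk₀) u hu hu1 (m.val : ℤ) ?_)
      rw [zpow_natCast, hq', hv]; group
    · exact ⟨k₀, hk₀, hk₀4, u, hu, hu1, m.val, by rw [zpow_natCast]; simpa [hv] using hq'.symm⟩
    · -- replace `k` by its inverse
      refine ⟨k₀⁻¹, inv_mem hk₀, fun h => hk₀4 (inv_eq_one.mp (by rwa [← inv_pow])), u, hu, hu1,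
        -(m.val : ℤ), ?_⟩
      obtain ⟨v', hv'⟩ : ∃ v', v' = k₀⁻¹ * u * k₀⁻¹⁻¹ := ⟨_, rfl⟩
      have hkz : k₀⁻¹ * z * k₀⁻¹⁻¹ = z⁻¹ :=
        hinvz _ (inv_mem hk₀) fun h => hk₀4 (inv_eq_one.mp (by rwa [← inv_pow]))
      have hback : k₀⁻¹ * v * k₀⁻¹⁻¹ = u := by rw [hv]; group
      have hA1 : v = v' * (u * u) * z ^ (-(m.val : ℤ)) := by
        calc v = k₀⁻¹ * (k₀ * v * k₀⁻¹) * k₀⁻¹⁻¹ := by group
          _ = k₀⁻¹ * (u * v ^ 2 * z ^ m.val) * k₀⁻¹⁻¹ := by rw [← hq']
          _ = v' * ((k₀⁻¹ * v * k₀⁻¹⁻¹) * (k₀⁻¹ * v * k₀⁻¹⁻¹)) * (k₀⁻¹ * z ^ (m.val : ℤ) * k₀⁻¹⁻¹) := by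
            rw [zpow_natCast, hv', pow_two]; group
          _ = _ := by rw [hback, conj_zpow_eq, hkz, inv_zpow']
      have hv'eq : v' = v * u * z ^ (m.val : ℤ) := by
        rw [hA1, mul_assoc (v' * (u * u)), ← (hz.commute_zpow hu _).eq]
        simp only [mul_assoc]
        rw [← zpow_add, neg_add_cancel, zpow_zero, mul_one, ← pow_two, ← pow_succ', hu3, mul_one]
      rw [← hv']
      show k₀⁻¹ * v' * k₀⁻¹⁻¹ = u * v' * z ^ (-(m.val : ℤ))
      conv_lhs => rw [hv'eq]
      rw [show k₀⁻¹ * (v * u * z ^ (m.val : ℤ)) * k₀⁻¹⁻¹ =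
        k₀⁻¹ * v * k₀⁻¹⁻¹ * (k₀⁻¹ * u * k₀⁻¹⁻¹) * (k₀⁻¹ * z ^ (m.val : ℤ) * k₀⁻¹⁻¹) by group, hback,
        ← hv', conj_zpow_eq, hkz, inv_zpow']
  -- normalised generators
  set a := u * z ^ (-t) with ha
  set b := k * a * k⁻¹ with hb
  have haP : a ∈ (P : Subgroup N) := mul_mem hu (zpow_mem hz.1 _)
  have hbP : b ∈ (P : Subgroup N) := hconjP k hk a haP
  have ha1 : a ∉ Subgroup.zpowers z := fun h =>
    hu1 ((Subgroup.mul_mem_cancel_right _ (zpow_mem (Subgroup.mem_zpowers z) _)).mp h)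
  have hkz := hinvz k hk hk4
  have hbv : b = k * u * k⁻¹ * z ^ t := by
    rw [hb, ha, show k * (u * z ^ (-t)) * k⁻¹ = k * u * k⁻¹ * (k * z ^ (-t) * k⁻¹) by group,
      conj_zpow_eq, hkz, inv_zpow', neg_neg]
  have hkb : k * b * k⁻¹ = a * b := by
    rw [hbv, show k * (k * u * k⁻¹ * z ^ t) * k⁻¹ = k * (k * u * k⁻¹) * k⁻¹ * (k * z ^ t * k⁻¹) by group,
      hrel, conj_zpow_eq, hkz, inv_zpow', ha]
    set V := k * u * k⁻¹
    have hcV : Commute V (z ^ (-t)) := hz.commute_zpow (hconjP k hk u hu) _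
    calc u * V * z ^ t * z ^ (-t) = u * V * z ^ (-t) * z ^ t := by
          simp only [mul_assoc, ← zpow_add, add_comm]
      _ = u * z ^ (-t) * (V * z ^ t) := by rw [mul_assoc u V, hcV.eq]; simp only [mul_assoc]
  set c := a⁻¹ * b⁻¹ * a * b with hc
  obtain ⟨n, hn'⟩ := hz.exists_comm haP hbP
  have hcz : c = z ^ (-n) := by
    have h : (a * b)⁻¹ * (b * a) = z ^ n := by rw [hn']; group
    rw [zpow_neg, ← h, hc]; group
  have hnc : ¬ Commute a b := fun h => hsqne k hk hk4 (hcommsq k hk a haP ha1 h)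
  have hcne : c ≠ 1 := fun h => hnc (by
    show a * b = b * a
    calc a * b = b * a * (a⁻¹ * b⁻¹ * a * b) := by group
      _ = b * a := by rw [← hc, h, mul_one])
  have hcP : c ∈ (P : Subgroup N) := hcz ▸ zpow_mem hz.1 _
  have hc3 : c ^ 3 = 1 := D.cube P c hcP
  have ha3 : a ^ 3 = 1 := D.cube P a haP
  have hb3 : b ^ 3 = 1 := D.cube P b hbP
  have hcc : ∀ x ∈ (P : Subgroup N), Commute x c := fun x hx => hcz ▸ hz.commute_zpow hx _
  have hc2 : c⁻¹ = c ^ 2 := inv_eq_of_mul_eq_one_right (by rw [← pow_succ']; exact hc3)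
  have hba : b * a = a * b * c ^ 2 := by rw [← hc2, hcz, zpow_neg, inv_inv, hn']
  have hkc : k * c * k⁻¹ = c ^ 2 := by
    rw [← hc2]
    conv_lhs => rw [hcz, conj_zpow_eq, hkz, inv_zpow]
    rw [hcz]
  have hbai : ∀ i : ℕ, b * a ^ i = a ^ i * b * c ^ (2 * i) := by
    intro i
    induction i with
    | zero => simp
    | succ i ih =>
      rw [pow_succ, ← mul_assoc, ih, mul_assoc (a ^ i * b),
        ← (((hcc a haP).pow_right (2 * i))).eq, ← mul_assoc, mul_assoc (a ^ i) b a, hba,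
        show 2 * (i + 1) = 2 + 2 * i by ring, pow_add]
      simp only [mul_assoc]
  have hbjai : ∀ j i : ℕ, b ^ j * a ^ i = a ^ i * b ^ j * c ^ (2 * i * j) := by
    intro j i
    induction j with
    | zero => simp
    | succ j ih =>
      rw [pow_succ', mul_assoc, ih, ← mul_assoc, ← mul_assoc, hbai, mul_assoc (a ^ i * b),
        ← (((hcc b hbP).pow_left j).pow_right (2 * i)).eq,
        show 2 * i * (j + 1) = 2 * i + 2 * i * j by ring, pow_add]
      simp only [mul_assoc]
  let el : ℕ → N := fun p => a ^ (p / 9) * b ^ (p / 3 % 3) * c ^ (p % 3)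
  have helP : ∀ p, el p ∈ (P : Subgroup N) := fun p =>
    mul_mem (mul_mem (pow_mem haP _) (pow_mem hbP _)) (pow_mem hcP _)
  have hmod : ∀ {x : N}, x ^ 3 = 1 → ∀ m : ℕ, x ^ (m % 3) = x ^ m := fun hx m => by
    conv_rhs => rw [← Nat.mod_add_div m 3, pow_add, pow_mul, hx, one_pow, mul_one]
  have hdec : ∀ i j m : ℕ, i < 3 → j < 3 → m < 3 →
      (i * 9 + j * 3 + m) / 9 = i ∧ (i * 9 + j * 3 + m) / 3 % 3 = j ∧ (i * 9 + j * 3 + m) % 3 = m := by
    omega
  have hmul : ∀ p < 27, ∀ q < 27, el (hm p q) = el p * el q := by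
    intro p hp q hq
    obtain ⟨e1, e2, e3⟩ := hdec ((p / 9 + q / 9) % 3) ((p / 3 % 3 + q / 3 % 3) % 3)
      ((p % 3 + q % 3 + 2 * (p / 3 % 3) * (q / 9)) % 3) (Nat.mod_lt _ (by norm_num))
      (Nat.mod_lt _ (by norm_num)) (Nat.mod_lt _ (by norm_num))
    show a ^ (hm p q / 9) * b ^ (hm p q / 3 % 3) * c ^ (hm p q % 3) = _
    rw [show hm p q = (p / 9 + q / 9) % 3 * 9 + (p / 3 % 3 + q / 3 % 3) % 3 * 3 +
      (p % 3 + q % 3 + 2 * (p / 3 % 3) * (q / 9)) % 3 from rfl, e1, e2, e3, hmod ha3, hmod hb3, hmod hc3]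
    set i := p / 9; set j := p / 3 % 3; set m := p % 3
    set i' := q / 9; set j' := q / 3 % 3; set m' := q % 3
    calc a ^ (i + i') * b ^ (j + j') * c ^ (m + m' + 2 * j * i')
        = a ^ i * (a ^ i' * b ^ j * c ^ (2 * i' * j)) * b ^ j' * c ^ (m + m') := by
          rw [pow_add, pow_add, show m + m' + 2 * j * i' = 2 * i' * j + (m + m') by ring, pow_add]
          generalize 2 * i' * j = r
          simp only [mul_assoc]
          rw [← mul_assoc (b ^ j') (c ^ r), (((hcc b hbP).pow_left j').pow_right r).eq]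
          simp only [mul_assoc]
      _ = a ^ i * (b ^ j * a ^ i') * b ^ j' * c ^ (m + m') := by rw [hbjai]
      _ = el p * el q := by
          show _ = a ^ i * b ^ j * c ^ m * (a ^ i' * b ^ j' * c ^ m')
          rw [pow_add]
          simp only [mul_assoc]
          rw [← mul_assoc (c ^ m) (a ^ i'), ← (((hcc a haP).pow_left i').pow_right m).eq,
            mul_assoc (a ^ i'), ← mul_assoc (c ^ m) (b ^ j'),
            ← (((hcc b hbP).pow_left j').pow_right m).eq]
          simp only [mul_assoc]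
  have hel0 : el 0 = 1 := by simp [el]
  have helone : ∀ p < 27, el p = 1 → p = 0 := by
    intro p hp h
    have hb1 : b ∉ Subgroup.zpowers z := hconjZ k hk a ha1
    have hcm : ∀ r : ℕ, c ^ r ∈ Subgroup.zpowers z := fun r =>
      pow_mem (hcz ▸ zpow_mem (Subgroup.mem_zpowers z) _) r
    have hj : p / 3 % 3 = 0 := by
      by_contra hj
      apply hnc
      have hbj : b ^ (p / 3 % 3) = (a ^ (p / 9))⁻¹ * (c ^ (p % 3))⁻¹ := by
        rw [eq_inv_mul_iff_mul_eq, eq_inv_iff_mul_eq_one]; exact h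
      have hc' : Commute (b ^ (p / 3 % 3)) a := by
        rw [hbj]
        exact ((Commute.refl a).pow_left _).inv_left.mul_left ((hcc a haP).pow_right _).inv_right.symm
      rcases (show p / 3 % 3 = 1 ∨ p / 3 % 3 = 2 by omega) with e | e <;> rw [e] at hc'
      · rw [pow_one] at hc'; exact hc'.symm
      · have h4 := hc'.pow_left 2
        rw [← pow_mul, show 2 * 2 = 3 + 1 by norm_num, pow_succ, hb3, one_mul] at h4
        exact h4.symm
    change a ^ (p / 9) * b ^ (p / 3 % 3) * c ^ (p % 3) = 1 at h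
    rw [hj, pow_zero, mul_one] at h
    have hi : p / 9 = 0 := by
      by_contra hi
      apply ha1
      have hai : a ^ (p / 9) ∈ Subgroup.zpowers z := by
        rw [eq_inv_of_mul_eq_one_left h]; exact inv_mem (hcm _)
      rcases (show p / 9 = 1 ∨ p / 9 = 2 by omega) with e | e <;> rw [e] at hai
      · rwa [pow_one] at hai
      · have h4 := pow_mem hai 2
        rwa [← pow_mul, show 2 * 2 = 3 + 1 by norm_num, pow_succ, ha3, one_mul] at h4
    rw [hi, pow_zero, one_mul] at h
    have hm0 : p % 3 = 0 := by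
      by_contra hm0
      apply hcne
      rcases (show p % 3 = 1 ∨ p % 3 = 2 by omega) with e | e <;> rw [e] at h
      · rwa [pow_one] at h
      · rw [← hc2] at h; exact inv_eq_one.mp h
    omega
  have helinj : ∀ p < 27, ∀ q < 27, el p = el q → p = q := by
    intro p hp q hq h
    have e1 := hmul (hinv p) (hinv_spec p hp).1 q hq
    rw [← h, ← hmul _ (hinv_spec p hp).1 p hp, (hinv_spec p hp).2, hel0] at e1
    have h0 := helone _ (hm_lt _ (hinv_spec p hp).1 _ hq) e1
    have key : ∀ p < 27, ∀ q < 27, hm (hinv p) q = 0 → p = q := by decide +kernel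
    exact key p hp q hq h0
  have helsurj : ∀ x ∈ (P : Subgroup N), ∃ p < 27, el p = x := by
    let f : Fin 27 → (P : Subgroup N) := fun p => ⟨el p.val, helP _⟩
    have hb' : Function.Bijective f := (Nat.bijective_iff_injective_and_card f).mpr
      ⟨fun p q e => Fin.ext (helinj _ p.isLt _ q.isLt (congrArg Subtype.val e)),
        by rw [Nat.card_fin, D.card_sylow P]⟩
    intro x hx
    obtain ⟨p, hp⟩ := hb'.2 ⟨x, hx⟩
    exact ⟨p.val, p.isLt, congrArg Subtype.val hp⟩
  have helk : ∀ p < 27, k * el p * k⁻¹ = el (sgTable.getD p 27) := by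
    intro p hp
    have e3 : el 3 = b := by simp [el]
    have e12 : el 12 = a * b := by simp [el]
    have e24 : el (hm 12 12) = (a * b) * (a * b) := by rw [hmul 12 (by norm_num) 12 (by norm_num), e12]
    have e6 : el 6 = b ^ 2 := by simp [el]
    have hb' : ∀ i < 3, el ([0, 3, 6].getD i 0) = b ^ i ∧ [0, 3, 6].getD i 0 < 27 := by
      intro i hi
      interval_cases i
      · exact ⟨by rw [pow_zero]; exact hel0, by decide⟩
      · exact ⟨by rw [pow_one]; exact e3, by decide⟩
      · exact ⟨e6, by decide⟩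
    have hab' : ∀ j < 3, el ([0, 12, hm 12 12].getD j 0) = (a * b) ^ j ∧
        [0, 12, hm 12 12].getD j 0 < 27 := by
      intro j hj
      interval_cases j
      · exact ⟨by rw [pow_zero]; exact hel0, by decide⟩
      · exact ⟨by rw [pow_one]; exact e12, by decide⟩
      · exact ⟨by rw [pow_two]; exact e24, by decide⟩
    obtain ⟨f1, g1⟩ := hb' (p / 9) (by omega)
    obtain ⟨f2, g2⟩ := hab' (p / 3 % 3) (by omega)
    have f3 : el (2 * (p % 3) % 3) = c ^ (2 * (p % 3)) := by
      show a ^ (2 * (p % 3) % 3 / 9) * b ^ (2 * (p % 3) % 3 / 3 % 3) * c ^ (2 * (p % 3) % 3 % 3) = _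
      rw [show 2 * (p % 3) % 3 / 9 = 0 by omega, show 2 * (p % 3) % 3 / 3 % 3 = 0 by
        rw [Nat.div_eq_of_lt (Nat.mod_lt _ (by norm_num))],
        Nat.mod_mod, hmod hc3, pow_zero, pow_zero, one_mul, one_mul]
    rw [sg_split p hp, hmul _ (hm_lt _ g1 _ g2) _ (by omega : 2 * (p % 3) % 3 < 27), hmul _ g1 _ g2, f1, f2, f3]
    show k * (a ^ (p / 9) * b ^ (p / 3 % 3) * c ^ (p % 3)) * k⁻¹ = _
    rw [show ∀ x y w : N, k * (x * y * w) * k⁻¹ = k * x * k⁻¹ * (k * y * k⁻¹) * (k * w * k⁻¹) from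
      fun x y w => by group, ← conj_pow, ← conj_pow, ← conj_pow, ← hb, hkb, hkc, ← pow_mul]
  -- the points
  let pt : ℕ → Sylow 3 N := fun p => if p < 27 then el p • R else P
  have hptlt : ∀ p < 27, pt p = el p • R := fun p hp => if_pos hp
  have hpt27 : pt 27 = P := if_neg (lt_irrefl _)
  have hne : ∀ x ∈ (P : Subgroup N), x • R ≠ P := fun x hx e =>
    hRP (MulAction.injective x (e.trans (hPA x hx).symm))
  have hinj : ∀ p < 28, ∀ q < 28, pt p = pt q → p = q := by
    intro p hp q hq h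
    rcases Nat.lt_or_ge p 27 with hp' | hp' <;> rcases Nat.lt_or_ge q 27 with hq' | hq'
    · rw [hptlt p hp', hptlt q hq'] at h
      refine helinj p hp' q hq' (inv_mul_eq_one.mp (hfree _ (mul_mem (inv_mem (helP q)) (helP p)) ?_)).symm
      rw [mul_smul, h, inv_smul_smul]
    · rw [hptlt p hp', show q = 27 by omega, hpt27] at h; exact absurd h (hne _ (helP p))
    · rw [hptlt q hq', show p = 27 by omega, hpt27] at h; exact absurd h.symm (hne _ (helP q))
    · omega
  have hsurj : ∀ S' : Sylow 3 N, ∃ p < 28, pt p = S' := by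
    let f : Fin 28 → Sylow 3 N := fun p => pt p.val
    have hb' : Function.Bijective f := (Nat.bijective_iff_injective_and_card f).mpr
      ⟨fun p q e => Fin.ext (hinj _ p.isLt _ q.isLt e), by rw [Nat.card_fin, hn]⟩
    intro S'
    obtain ⟨p, hp⟩ := hb'.2 S'
    exact ⟨p.val, p.isLt, hp⟩
  have helact : ∀ h < 27, ∀ p < 28, el h • pt p = pt (tr h p) := by
    intro h hh p hp
    rcases Nat.lt_or_ge p 27 with hp' | hp'
    · rw [tr, if_pos hp', hptlt p hp', hptlt _ (hm_lt h hh p hp'), hmul h hh p hp']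
      exact (mul_smul (el h) (el p) R).symm
    · rw [show p = 27 by omega, tr, if_neg (lt_irrefl _), hpt27]; exact hPA _ (helP h)
  have hkP : k • P = P := hk.1
  have hkR : k • R = R := hk.2
  have hkact : ∀ p < 28, k • pt p = pt (sgTable.getD p 27) := by
    intro p hp
    rcases Nat.lt_or_ge p 27 with hp' | hp'
    · rw [hptlt p hp', hptlt _ (sg_lt p hp'), ← helk p hp', mul_smul (k * el p) k⁻¹ R,
        show k⁻¹ • R = R from inv_smul_eq_iff.mpr hkR.symm, mul_smul k (el p) R]
    · rw [show p = 27 by omega, sg_top, hpt27, hkP]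
  have hklt : ∀ p < 28, sgTable.getD p 27 < 28 := fun p hp => by
    rcases Nat.lt_or_ge p 27 with hp' | hp'
    · exact (sg_lt p hp').trans (by norm_num)
    · rw [show p = 27 by omega, sg_top]; norm_num
  have hpow_lt : ∀ i, ∀ p < 28, sgPow i p < 28 := by
    intro i
    induction i with
    | zero => intro p hp; exact hp
    | succ i ih => intro p hp; exact hklt _ (ih p hp)
  have hkpow : ∀ i, ∀ p < 28, k ^ i • pt p = pt (sgPow i p) := by
    intro i
    induction i with
    | zero => intro p hp; simp [sgPow]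
    | succ i ih => intro p hp; rw [pow_succ', mul_smul, ih p hp, hkact _ (hpow_lt i p hp)]; rfl
  -- the cyclic stabiliser
  have hKk : ∀ g ∈ K, ∃ i < 8, g = k ^ i := by
    intro g hg
    have hle : Subgroup.zpowers k ≤ K := Subgroup.zpowers_le.mpr hk
    have heq : Subgroup.zpowers k = K :=
      Subgroup.eq_of_le_of_card_ge hle (by rw [hK8, Nat.card_zpowers, horder k hk hk4])
    obtain ⟨i, hi⟩ := mem_powers_iff_mem_zpowers.mpr (heq.symm ▸ hg)
    refine ⟨i % 8, Nat.mod_lt _ (by norm_num), ?_⟩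
    rw [← hi, ← horder k hk hk4, pow_mod_orderOf]
  have hstab : ∀ g : N, g • pt 27 = pt 27 → ∃ h < 27, ∃ i < 8, g = el h * k ^ i := by
    intro g hg
    rw [hpt27] at hg
    obtain ⟨h, hh, q, hq, rfl⟩ := hfac g hg
    obtain ⟨p, hp, rfl⟩ := helsurj h hh
    obtain ⟨i, hi, rfl⟩ := hKk q hq
    exact ⟨p, hp, i, hi, rfl⟩
  -- the interchanging element
  obtain ⟨w₀, hw₀P, hw₀R⟩ : ∃ w : N, w • P = R ∧ w • R = P := by
    obtain ⟨g, hg⟩ := MulAction.exists_smul_eq N P R
    have hgR : g • R ≠ R := fun e => hRP (MulAction.injective g (e.trans hg.symm))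
    obtain ⟨h, hh, hhR⟩ := D.exists_smul hn hgR hRP.symm
    refine ⟨h * g, ?_, by rw [mul_smul, hhR]⟩
    rw [mul_smul, hg]
    exact Sylow.smul_eq_iff_mem_normalizer.mpr (Subgroup.le_normalizer hh)
  obtain ⟨e, he8, hwe⟩ : ∃ e < 8, w₀ * k * w₀⁻¹ = k ^ e := by
    have h1 : w₀⁻¹ • P = R := inv_smul_eq_iff.mpr hw₀R.symm
    have h2 : w₀⁻¹ • R = P := inv_smul_eq_iff.mpr hw₀P.symm
    refine hKk _ ⟨?_, ?_⟩
    · show (w₀ * k * w₀⁻¹) • P = P
      rw [mul_smul, mul_smul, h1, hkR, hw₀R]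
    · show (w₀ * k * w₀⁻¹) • R = R
      rw [mul_smul, mul_smul, h2, hkP, hw₀P]
  have he : e ∈ [1, 3, 5, 7] := by
    have h8 : orderOf (k ^ e) = 8 := by
      rw [← hwe, show w₀ * k * w₀⁻¹ = MulAut.conj w₀ k from rfl, MulEquiv.orderOf_eq, horder k hk hk4]
    rw [orderOf_pow, horder k hk hk4] at h8
    interval_cases e <;> first | decide | norm_num at h8
  have hmove : ∀ w : N, w * k * w⁻¹ = k ^ e → ∀ i : ℕ, w * k ^ i = k ^ (e * i) * w := by
    intro w hw i
    induction i with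
    | zero => simp
    | succ i ih =>
      rw [pow_succ, ← mul_assoc, ih, mul_assoc, mul_inv_eq_iff_eq_mul.mp hw, ← mul_assoc, ← pow_add,
        show e * i + e = e * (i + 1) by ring]
  have hpt0 : pt 0 = R := by rw [hptlt 0 (by norm_num), hel0, one_smul]
  have hmid : ∀ w : N, w • P = R → w • R = P → ∀ p < 27, 1 ≤ p → ∀ q < 28, w • pt p = pt q →
      q ≠ 0 ∧ q ≠ 27 := by
    intro w hP hR p hp hp1 q hq h
    constructor <;> rintro rfl
    · rw [hpt0, ← hP, ← hpt27] at h
      have := hinj p (by omega) 27 (by norm_num) (MulAction.injective w h)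
      omega
    · rw [hpt27, ← hR, ← hpt0] at h
      have := hinj p (by omega) 0 (by norm_num) (MulAction.injective w h)
      omega
  have hper : ∀ i, ∀ p < 28, sgPow (i % 8) p = sgPow i p := fun i p hp => by
    refine hinj _ (hpow_lt _ _ hp) _ (hpow_lt _ _ hp) ?_
    rw [← hkpow _ _ hp, ← hkpow _ _ hp]
    congr 1
    conv_lhs => rw [← horder k hk hk4, pow_mod_orderOf]
  -- fixing the central points
  obtain ⟨w₁, hw₁P, hw₁R, hw₁, hw₁1⟩ : ∃ w : N, w • P = R ∧ w • R = P ∧ w * k * w⁻¹ = k ^ e ∧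
      w • pt 1 = pt 1 := by
    obtain ⟨q, hq, hq'⟩ := hsurj (w₀ • pt 1)
    obtain ⟨hq0, hq27⟩ := hmid w₀ hw₀P hw₀R 1 (by norm_num) le_rfl q hq hq'.symm
    have hfixq : sgPow 2 q = q := by
      have hee : ∃ i, e * i % 8 = 2 ∧ i % 2 = 0 := by
        simp only [List.mem_cons, List.not_mem_nil, or_false] at he
        rcases he with rfl | rfl | rfl | rfl
        exacts [⟨2, rfl, rfl⟩, ⟨6, rfl, rfl⟩, ⟨2, rfl, rfl⟩, ⟨6, rfl, rfl⟩]
      obtain ⟨i, hi, hi2⟩ := hee
      refine hinj _ (hpow_lt _ _ hq) _ hq ?_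
      have h2 : sgPow i 1 = 1 := by
        obtain ⟨r, rfl⟩ : ∃ r, i = 2 * r := ⟨i / 2, by omega⟩
        clear hi hi2
        induction r with
        | zero => rfl
        | succ r ih =>
          rw [show 2 * (r + 1) = 2 * r + 1 + 1 by ring, sgPow, sgPow, ih]; decide
      rw [← hkpow 2 q hq, ← hi, hq', ← horder k hk hk4, pow_mod_orderOf, ← mul_smul,
        ← hmove w₀ hwe i, mul_smul, hkpow i 1 (by norm_num), h2]
    rcases fixed_two q hq hfixq with rfl | rfl | rfl | rfl
    · exact absurd rfl hq0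
    · exact ⟨w₀, hw₀P, hw₀R, hwe, hq'.symm⟩
    · refine ⟨k * w₀, by rw [mul_smul, hw₀P, hkR], by rw [mul_smul, hw₀R, hkP], ?_, ?_⟩
      · rw [show k * w₀ * k * (k * w₀)⁻¹ = k * (w₀ * k * w₀⁻¹) * k⁻¹ by group, hwe,
          ← pow_succ', pow_succ, mul_inv_cancel_right]
      · rw [mul_smul, ← hq', hkact 2 (by norm_num)]; rfl
    · exact absurd rfl hq27
  -- the parity of the image of the first representative
  obtain ⟨w, hwP, hwR, hw, hw1, v₀, hv₀, hw3⟩ : ∃ w : N, w • P = R ∧ w • R = P ∧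
      w * k * w⁻¹ = k ^ e ∧ w • pt 1 = pt 1 ∧
      ∃ v₀ ∈ [3, 12, 4, 14, 5, 13], w • pt 3 = pt v₀ := by
    obtain ⟨q, hq, hq'⟩ := hsurj (w₁ • pt 3)
    obtain ⟨hq0, hq27⟩ := hmid w₁ hw₁P hw₁R 3 (by norm_num) (by norm_num) q hq hq'.symm
    have hqne : q ≠ 1 ∧ q ≠ 2 := by
      constructor <;> rintro rfl
      · rw [← hw₁1] at hq'
        exact absurd (hinj 1 (by norm_num) 3 (by norm_num) (MulAction.injective w₁ hq')) (by norm_num)
      · have h2 : w₁ • pt 2 = pt 2 := by
          have h := congrArg (k ^ e • ·) hw₁1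
          simp only [← mul_smul] at h
          rw [show k ^ e * w₁ = w₁ * k by rw [← hw₁]; group, mul_smul, hkact 1 (by norm_num),
            hkpow e 1 (by norm_num)] at h
          simp only [List.mem_cons, List.not_mem_nil, or_false] at he
          rcases he with rfl | rfl | rfl | rfl <;> exact h
        rw [← h2] at hq'
        exact absurd (hinj 2 (by norm_num) 3 (by norm_num) (MulAction.injective w₁ hq')) (by norm_num)
    obtain ⟨i, hi, hiq⟩ := exists_shift q (List.mem_map.mpr ⟨q - 3, List.mem_range.mpr (by omega),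
      by omega⟩)
    have hfix1 : ∀ x : Sylow 3 N, x = P ∨ x = R → k ^ (2 * i) • x = x := by
      have : ∀ j : ℕ, k ^ j ∈ K := fun j => pow_mem hk j
      rintro x (rfl | rfl)
      · exact (this _).1
      · exact (this _).2
    refine ⟨k ^ (2 * i) * w₁, ?_, ?_, ?_, ?_, _, hiq, ?_⟩
    · rw [mul_smul, hw₁P, hfix1 _ (Or.inr rfl)]
    · rw [mul_smul, hw₁R, hfix1 _ (Or.inl rfl)]
    · rw [show k ^ (2 * i) * w₁ * k * (k ^ (2 * i) * w₁)⁻¹ =
        k ^ (2 * i) * (w₁ * k * w₁⁻¹) * (k ^ (2 * i))⁻¹ by group, hw₁, ← pow_add, add_comm, pow_add,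
        mul_inv_cancel_right]
    · rw [mul_smul, hw₁1, hkpow _ 1 (by norm_num)]
      interval_cases i <;> rfl
    · rw [mul_smul, ← hq', hkpow _ q hq]
  have hwk : ∀ i, ∀ p < 28, ∀ q < 28, w • pt p = pt q →
      w • pt (sgPow i p) = pt (sgPow (e * i % 8) q) := by
    intro i p hp q hq h
    rw [← hkpow i p hp, ← mul_smul, hmove w hw i, mul_smul, h, hkpow _ q hq, hper _ q hq]
  have hw2 : w • pt 2 = pt 2 := by
    have h := hwk 1 1 (by norm_num) 1 (by norm_num) hw1
    simp only [List.mem_cons, List.not_mem_nil, or_false] at he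
    rcases he with rfl | rfl | rfl | rfl <;> exact h
  have hoff : ∀ p < 27, 3 ≤ p → ∃ v ∈ offCentre, w • pt p = pt v := by
    intro p hp hp3
    obtain ⟨q, hq, hq'⟩ := hsurj (w • pt p)
    obtain ⟨h0, h27⟩ := hmid w hwP hwR p hp (by omega) q hq hq'.symm
    refine ⟨q, List.mem_map.mpr ⟨q - 3, List.mem_range.mpr (by omega), ?_⟩, hq'.symm⟩
    have h1 : q ≠ 1 := fun e1 => by
      rw [e1, ← hw1] at hq'
      have := hinj 1 (by norm_num) p (by omega) (MulAction.injective w hq')
      omega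
    have h2 : q ≠ 2 := fun e2 => by
      rw [e2, ← hw2] at hq'
      have := hinj 2 (by norm_num) p (by omega) (MulAction.injective w hq')
      omega
    omega
  obtain ⟨v₁, hv₁, hw4⟩ := hoff 4 (by norm_num) (by norm_num)
  obtain ⟨v₂, hv₂, hw5⟩ := hoff 5 (by norm_num) (by norm_num)
  have hvlt : ∀ v ∈ offCentre, v < 28 := by decide +kernel
  have hwact : ∀ p < 28, w • pt p = pt (wf e v₀ v₁ v₂ p) := by
    intro p hp
    unfold wf
    by_cases h27 : p = 27
    · rw [if_pos h27, h27, hpt27, hpt0, hwP]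
    rw [if_neg h27]
    by_cases h0 : p = 0
    · rw [if_pos h0, h0, hpt27, hpt0, hwR]
    rw [if_neg h0]
    by_cases h2 : p ≤ 2
    · rw [if_pos h2]
      rcases (show p = 1 ∨ p = 2 by omega) with rfl | rfl
      exacts [hw1, hw2]
    rw [if_neg h2]
    obtain ⟨hr, hl⟩ := loc_spec p (by omega) (by omega)
    simp only
    generalize hl2 : (locTable.getD p (0, 0)).2 = t₀ at hl
    generalize hl1 : (locTable.getD p (0, 0)).1 = r at hl hr
    conv_lhs => rw [← hl]
    interval_cases r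
    · rw [if_pos rfl]
      exact hwk t₀ 3 (by norm_num) v₀ (by simp at hv₀; omega) hw3
    · rw [if_neg (by norm_num), if_pos rfl]
      exact hwk t₀ 4 (by norm_num) v₁ (hvlt _ hv₁) hw4
    · rw [if_neg (by norm_num), if_neg (by norm_num)]
      exact hwk t₀ 5 (by norm_num) v₂ (hvlt _ hv₂) hw5
  exact ⟨el, k, w, pt, e, v₀, v₁, v₂, hinj, hsurj, helact, hkact, hwact, hstab, he, hv₀, hv₁, hv₂⟩

end CfsgLib.GTwoTwoUniq80
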