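import Cfsg.Agent.GTwoTwoUniq80.Tools

/-!
Groups of order `12096` without elements of order `9`, `14` or `21`.
-/

set_option autoImplicit false

namespace CfsgLib.GTwoTwoUniq80

open Cfsg

/-- The hypotheses on the group. -/
structure Good (G : Type*) [Group G] : Prop where
  card : Nat.card G = 12096
  spec : ∀ g : G, orderOf g ≠ 9 ∧ orderOf g ≠ 14 ∧ orderOf g ≠ 21

variable {G : Type*} [Group G] [Finite G]

theorem factorization_seven : (12096 : ℕ).factorization 7 = 1 := by
  rw [show 12096 = 7 * 1728 by norm_num, Nat.factorization_mul (by norm_num) (by norm_num),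
    Finsupp.add_apply, (by norm_num : Nat.Prime 7).factorization_self,
    Nat.factorization_eq_zero_of_not_dvd (by norm_num : ¬ 7 ∣ 1728)]

/-- A Sylow `7`-subgroup is self-centralising with normaliser of order `42`. -/
theorem Good.seven [Fact (Nat.Prime 7)] (hG : Good G) (P : Sylow 7 G) :
    Nat.card (P : Subgroup G) = 7 ∧
      Nat.card (Subgroup.centralizer ((P : Subgroup G) : Set G)) = 7 ∧
      Nat.card (Subgroup.normalizer ((P : Subgroup G) : Set G)) = 42 := by
  have hP : Nat.card (P : Subgroup G) = 7 := by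
    rw [Sylow.card_eq_multiplicity, hG.card, factorization_seven]; norm_num
  haveI := isCyclic_of_prime_card hP
  have hPC : (P : Subgroup G) ≤ Subgroup.centralizer ((P : Subgroup G) : Set G) :=
    Subgroup.le_centralizer _
  set C := Subgroup.centralizer ((P : Subgroup G) : Set G) with hCdef
  obtain ⟨x, hx⟩ : ∃ x : (P : Subgroup G), orderOf x = 7 := exists_prime_orderOf_dvd_card' 7 hP.symm.dvd
  have hq : ∀ q : ℕ, q.Prime → q ∣ Nat.card C → q = 7 := by
    intro q hq hd
    by_contra hne
    haveI : Fact q.Prime := ⟨hq⟩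
    obtain ⟨⟨y, hy⟩, ho⟩ := exists_prime_orderOf_dvd_card' q hd
    rw [Subgroup.orderOf_mk] at ho
    have hq23 : q = 2 ∨ q = 3 := by
      have h : q ∣ 2 ^ 6 * (3 ^ 3 * 7) := by
        have := hd.trans (Subgroup.card_subgroup_dvd_card _)
        rwa [hG.card] at this
      rcases (hq.dvd_mul.mp h) with h | h
      · exact Or.inl ((Nat.prime_dvd_prime_iff_eq hq Nat.prime_two).mp (hq.dvd_of_dvd_pow h))
      rcases (hq.dvd_mul.mp h) with h | h
      · exact Or.inr ((Nat.prime_dvd_prime_iff_eq hq Nat.prime_three).mp (hq.dvd_of_dvd_pow h))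
      · exact absurd ((Nat.prime_dvd_prime_iff_eq hq (by norm_num)).mp h) hne
    have hc : Commute (x : G) y := hy x x.2
    have hxo : orderOf (x : G) = 7 := by rw [Subgroup.orderOf_coe, hx]
    have h := hc.orderOf_mul_eq_mul_orderOf_of_coprime (by
      rw [hxo, ho]; exact (Nat.coprime_primes (by norm_num) hq).mpr (Ne.symm hne))
    rw [hxo, ho] at h
    rcases hq23 with rfl | rfl
    · exact (hG.spec _).2.1 h
    · exact (hG.spec _).2.2 h
  have hC : Nat.card C = 7 := by
    have h7 : 7 ∣ Nat.card C := hP.symm.dvd.trans (Subgroup.card_dvd_of_le hPC)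
    have hd : Nat.card C ∣ 7 * 1728 := by
      have := Subgroup.card_subgroup_dvd_card C
      rwa [hG.card] at this
    obtain ⟨c, hc⟩ := h7
    rw [hc] at hd hq
    have hc1728 : c ∣ 1728 := Nat.dvd_of_mul_dvd_mul_left (by norm_num) hd
    rcases eq_or_ne c 1 with rfl | hc1
    · rw [hc]
    · have hp := Nat.minFac_prime hc1
      have h1 := hq _ hp ((Nat.minFac_dvd c).trans (dvd_mul_left c 7))
      have h2 := (Nat.minFac_dvd c).trans hc1728
      rw [h1] at h2
      norm_num at h2
  refine ⟨hP, hC, ?_⟩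
  haveI := Fintype.ofFinite G
  obtain ⟨u₀, hu, hz, hidx⟩ := CfsgLib.Blocks.OrderP.exists_generator_sylow P hP
  have he : (Subgroup.centralizer ((P : Subgroup G) : Set G)).relIndex
      (Subgroup.normalizer ((P : Subgroup G) : Set G)) ∣ 6 := by
    rw [← hz]
    exact (CfsgLib.Blocks.OrderP.exists_local_data hu hidx rfl).1
  have hmul := CfsgLib.PrimeGram.relIndex_mul_centralizer (P : Subgroup G)
  rw [hC] at hmul
  have hidxN := (Subgroup.normalizer ((P : Subgroup G) : Set G)).card_mul_index
  rw [show (Subgroup.normalizer ((P : Subgroup G) : Set G)).index = Nat.card (Sylow 7 G) from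
    (Sylow.card_eq_index_normalizer P).symm, hG.card] at hidxN
  have hmod := card_sylow_modEq_one 7 G
  unfold Nat.ModEq at hmod
  set e := (Subgroup.centralizer ((P : Subgroup G) : Set G)).relIndex
      (Subgroup.normalizer ((P : Subgroup G) : Set G))
  have he6 : e ≤ 6 := Nat.le_of_dvd (by norm_num) he
  rw [← hmul] at hidxN ⊢
  interval_cases e <;> omega

end CfsgLib.GTwoTwoUniq80
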