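import Cfsg.Agent.GTwoTwoUniq80.Three
import Mathlib.GroupTheory.IndexNormal

/-!
The Sylow `3`-subgroups form a set of `28` points meeting pairwise trivially.
-/

set_option autoImplicit false

namespace CfsgLib.GTwoTwoUniq80

open Cfsg
open scoped Pointwise

variable {N : Type*} [Group N] {Q : N → Prop}

theorem ThreeData.order_three (D : ThreeData N Q) {P : Sylow 3 N} {u : N}
    (hu : u ∈ (P : Subgroup N)) (h1 : u ≠ 1) : orderOf u = 3 :=
  haveI : Fact (Nat.Prime 3) := ⟨Nat.prime_three⟩
  orderOf_eq_prime (D.cube P u hu) h1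

/-- A generator of the centre of `P`. -/
def ThreeData.IsCentre (_ : ThreeData N Q) (P : Sylow 3 N) (z : N) : Prop :=
  z ∈ (P : Subgroup N) ∧ z ≠ 1 ∧ (∀ v ∈ (P : Subgroup N), v * z = z * v) ∧
    (∀ u ∈ (P : Subgroup N), u ≠ 1 → (Q u ↔ u ∈ Subgroup.zpowers z))

theorem ThreeData.exists_isCentre (D : ThreeData N Q) (P : Sylow 3 N) : ∃ z, D.IsCentre P z :=
  D.exists_centre P

variable {D : ThreeData N Q} {P : Sylow 3 N} {z : N}

theorem ThreeData.IsCentre.q (hz : D.IsCentre P z) : Q z :=
  (hz.2.2.2 z hz.1 hz.2.1).mpr (Subgroup.mem_zpowers z)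

theorem ThreeData.IsCentre.card_zpowers (hz : D.IsCentre P z) : Nat.card (Subgroup.zpowers z) = 3 := by
  rw [Nat.card_zpowers, D.order_three hz.1 hz.2.1]

theorem ThreeData.IsCentre.zpowers_le (hz : D.IsCentre P z) : Subgroup.zpowers z ≤ (P : Subgroup N) :=
  Subgroup.zpowers_le.mpr hz.1

variable [Finite N]

/-- A noncentral element of `P` has centraliser of order nine inside `P`. -/
theorem ThreeData.IsCentre.centralizer_le (hz : D.IsCentre P z) {u : N} (hu : u ∈ (P : Subgroup N))
    (hu1 : u ∉ Subgroup.zpowers z) :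
    Nat.card (Subgroup.centralizer ({u} : Set N)) = 9 ∧
      Subgroup.centralizer ({u} : Set N) ≤ (P : Subgroup N) := by
  haveI : Fact (Nat.Prime 3) := ⟨Nat.prime_three⟩
  have hne : u ≠ 1 := fun h => hu1 (h ▸ one_mem _)
  have h9 := D.centralizer_other u (D.order_three hu hne) fun h => hu1 ((hz.2.2.2 u hu hne).mp h)
  refine ⟨h9, ?_⟩
  set C := Subgroup.centralizer ({u} : Set N)
  have hle : Subgroup.zpowers u ⊔ Subgroup.zpowers z ≤ C ⊓ (P : Subgroup N) :=
    sup_le (Subgroup.zpowers_le.mpr ⟨Subgroup.mem_centralizer_singleton_iff.mpr rfl, hu⟩)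
      (Subgroup.zpowers_le.mpr ⟨Subgroup.mem_centralizer_singleton_iff.mpr (hz.2.2.1 u hu).symm, hz.1⟩)
  have hd : Nat.card (C ⊓ (P : Subgroup N) : Subgroup N) ∣ 3 ^ 2 :=
    (Subgroup.card_dvd_of_le inf_le_left).trans (dvd_of_eq (by rw [h9]; norm_num))
  obtain ⟨i, hi, he⟩ := (Nat.dvd_prime_pow Nat.prime_three).mp hd
  have h2 : i = 2 := by
    by_contra hcon
    have h3 : Nat.card (C ⊓ (P : Subgroup N) : Subgroup N) ≤ 3 := by
      rw [he]; exact (Nat.pow_le_pow_right (by norm_num) (by omega : i ≤ 1)).trans (by norm_num)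
    have hzle : Subgroup.zpowers z ≤ C ⊓ (P : Subgroup N) := le_sup_right.trans hle
    have heq : Subgroup.zpowers z = C ⊓ (P : Subgroup N) :=
      Subgroup.eq_of_le_of_card_ge hzle (by rw [hz.card_zpowers]; exact h3)
    exact hu1 (heq ▸ (le_sup_left.trans hle) (Subgroup.mem_zpowers u))
  have heq : C ⊓ (P : Subgroup N) = C :=
    Subgroup.eq_of_le_of_card_ge inf_le_left (by rw [he, h2, h9]; norm_num)
  exact heq ▸ inf_le_right

theorem ThreeData.IsCentre.exists_not_mem (hz : D.IsCentre P z) :
    ∃ u ∈ (P : Subgroup N), u ∉ Subgroup.zpowers z := by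
  by_contra h
  push_neg at h
  have := Subgroup.card_le_of_le (show (P : Subgroup N) ≤ Subgroup.zpowers z from h)
  rw [D.card_sylow P, hz.card_zpowers] at this
  omega

/-- The centraliser of the centre of `P` normalises `P`. -/
theorem ThreeData.IsCentre.le_normalizer (hz : D.IsCentre P z) :
    Subgroup.centralizer ({z} : Set N) ≤ Subgroup.normalizer ((P : Subgroup N) : Set N) := by
  haveI : Fact (Nat.Prime 3) := ⟨Nat.prime_three⟩
  set C := Subgroup.centralizer ({z} : Set N) with hC
  have hdvd := D.centralizer_centre z (D.order_three hz.1 hz.2.1) hz.q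
  have hPC : (P : Subgroup N) ≤ C := fun v hv =>
    Subgroup.mem_centralizer_singleton_iff.mpr (hz.2.2.1 v hv)
  let P' : Sylow 3 C := P.subtype hPC
  have hP' : Nat.card (P' : Subgroup C) = 27 := by
    rw [Sylow.coe_subtype, Nat.card_congr (Subgroup.subgroupOfEquivOfLe hPC).toEquiv, D.card_sylow P]
  have hone : ∀ R : Sylow 3 C, R = P' := by
    by_contra hcon
    push_neg at hcon
    obtain ⟨R, hR⟩ := hcon
    have hR' : Nat.card (R : Subgroup C) = 27 := by
      rw [Sylow.card_eq_multiplicity, ← Sylow.card_eq_multiplicity P', hP']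
    obtain ⟨r, hr⟩ := hdvd
    have h := (P' : Subgroup C).card_mul_index
    rw [hP'] at h
    have hidx : (P' : Subgroup C).index ∣ 4 := by
      refine ⟨r, ?_⟩
      have : 27 * 4 = 27 * ((P' : Subgroup C).index * r) := by
        rw [← mul_assoc, h]; norm_num; exact hr
      omega
    have hd := (Sylow.card_dvd_index P').trans hidx
    have hm := card_sylow_modEq_one 3 C
    unfold Nat.ModEq at hm
    have hge : 2 ≤ Nat.card (Sylow 3 C) := Finite.one_lt_card_iff_nontrivial.mpr ⟨R, P', hR⟩
    have h4 : Nat.card (Sylow 3 C) = 4 := by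
      have hle := Nat.le_of_dvd (by norm_num) hd
      interval_cases hh : Nat.card (Sylow 3 C) <;> omega
    have hidx4 : (P' : Subgroup C).index = 4 :=
      Nat.dvd_antisymm hidx (h4 ▸ Sylow.card_dvd_index P')
    have hC108 : Nat.card C = 108 := by rw [hidx4] at h; omega
    -- the intersection has order nine
    set E := (P' : Subgroup C) ⊓ (R : Subgroup C) with hE
    have hne : ∀ A B : Sylow 3 C, Nat.card (A : Subgroup C) = 27 → Nat.card (B : Subgroup C) = 27 →
        (A : Subgroup C) ≤ (B : Subgroup C) → A = B := fun A B hA hB hle =>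
      Sylow.ext (Subgroup.eq_of_le_of_card_ge hle (by rw [hA, hB]))
    have hER : E.relIndex (R : Subgroup C) = 3 := by
      rw [hE, Subgroup.inf_relIndex_right]
      have h1 : (P' : Subgroup C).relIndex (R : Subgroup C) ∣ 3 ^ 3 :=
        (Subgroup.relIndex_dvd_card _ _).trans (dvd_of_eq (by rw [hR']; norm_num))
      have h2 : (P' : Subgroup C).relIndex (R : Subgroup C) ≤ 4 := by
        refine (Subgroup.relIndex_le_of_le_right le_top ?_).trans_eq ?_
        · rw [Subgroup.relIndex_top_right, hidx4]; norm_num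
        · rw [Subgroup.relIndex_top_right, hidx4]
      have h3 : (P' : Subgroup C).relIndex (R : Subgroup C) ≠ 1 := fun e =>
        hR (hne R P' hR' hP' (Subgroup.relIndex_eq_one.mp e))
      obtain ⟨i, hi, he⟩ := (Nat.dvd_prime_pow Nat.prime_three).mp h1
      interval_cases i <;> simp_all
    have hE9 : Nat.card E = 9 := by
      have h := (E.subgroupOf (R : Subgroup C)).card_mul_index
      rw [Nat.card_congr (Subgroup.subgroupOfEquivOfLe inf_le_right).toEquiv,
        show (E.subgroupOf (R : Subgroup C)).index = E.relIndex (R : Subgroup C) from rfl, hER, hR'] at h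
      change Nat.card E * 3 = 27 at h
      omega
    -- it is normal
    have hnorm : ∀ A : Sylow 3 C, Nat.card (A : Subgroup C) = 27 → E ≤ (A : Subgroup C) →
        (A : Subgroup C) ≤ Subgroup.normalizer (E : Set C) := by
      intro A hA hEA
      have h := (E.subgroupOf (A : Subgroup C)).card_mul_index
      rw [Nat.card_congr (Subgroup.subgroupOfEquivOfLe hEA).toEquiv, hE9, hA] at h
      haveI : (E.subgroupOf (A : Subgroup C)).Normal := Subgroup.normal_of_index_eq_minFac_card (by
        rw [hA, show (E.subgroupOf (A : Subgroup C)).index = 3 by omega,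
          show (27 : ℕ) = 3 ^ 3 by norm_num, Nat.Prime.pow_minFac Nat.prime_three (by norm_num)])
      exact Subgroup.le_normalizer_of_normal_subgroupOf hEA
    set M := Subgroup.normalizer (E : Set C) with hM
    have hPM := hnorm P' hP' inf_le_left
    have hRM := hnorm R hR' inf_le_right
    have hMtop : M = ⊤ := by
      have h27 : 27 ∣ Nat.card M := hP' ▸ Subgroup.card_dvd_of_le hPM
      obtain ⟨m, hm'⟩ := h27
      have hd4 : m ∣ 4 := by
        have := Subgroup.card_subgroup_dvd_card M
        rw [hm', hC108, show 108 = 27 * 4 by norm_num] at this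
        exact Nat.dvd_of_mul_dvd_mul_left (by norm_num) this
      have hm4 : m = 4 := by
        by_contra hne4
        let A : Sylow 3 M := P'.subtype hPM
        let B : Sylow 3 M := R.subtype hRM
        have hAB : A ≠ B := fun e => hR (Sylow.subtype_injective e).symm
        have h2 : 2 ≤ Nat.card (Sylow 3 M) := Finite.one_lt_card_iff_nontrivial.mpr ⟨A, B, hAB⟩
        have hA : Nat.card (A : Subgroup M) = 27 := by
          rw [Sylow.coe_subtype, Nat.card_congr (Subgroup.subgroupOfEquivOfLe hPM).toEquiv, hP']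
        have hA' := (A : Subgroup M).card_mul_index
        rw [hA, hm'] at hA'
        have hd' : Nat.card (Sylow 3 M) ∣ m := by
          have := Sylow.card_dvd_index A
          rwa [show (A : Subgroup M).index = m by omega] at this
        have hmod := card_sylow_modEq_one 3 M
        unfold Nat.ModEq at hmod
        have hm2 : m ≤ 4 := Nat.le_of_dvd (by norm_num) hd4
        have hle := Nat.le_of_dvd (by rcases Nat.eq_zero_or_pos m with rfl | h0
                                      · norm_num at hm'
                                        exact absurd hm' Nat.card_pos.ne'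
                                      · exact h0) hd'
        interval_cases m <;> omega
      exact Subgroup.eq_top_of_card_eq M (by rw [hm', hm4, hC108])
    haveI hEn : E.Normal := Subgroup.normalizer_eq_top_iff.mp hMtop
    -- a noncentral element of it would have at least twelve conjugates
    obtain ⟨e, heE, hez⟩ : ∃ e ∈ E, (e : N) ∉ Subgroup.zpowers z := by
      by_contra hcon
      push_neg at hcon
      have hle : E.map C.subtype ≤ Subgroup.zpowers z := by
        rintro _ ⟨e, he, rfl⟩; exact hcon e he
      have h := Subgroup.card_le_of_le hle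
      rw [Subgroup.card_map_of_injective C.subtype_injective, hE9, hz.card_zpowers] at h
      omega
    have heP : (e : N) ∈ (P : Subgroup N) := (inf_le_left : E ≤ _) heE
    have hcent : Nat.card (Subgroup.centralizer ({e} : Set C)) ∣ 9 := by
      have hle : (Subgroup.centralizer ({e} : Set C)).map C.subtype ≤
          Subgroup.centralizer ({(e : N)} : Set N) := by
        rintro _ ⟨c, hc, rfl⟩
        exact Subgroup.mem_centralizer_singleton_iff.mpr
          (congrArg Subtype.val (Subgroup.mem_centralizer_singleton_iff.mp hc))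
      have h := Subgroup.card_dvd_of_le hle
      rwa [Subgroup.card_map_of_injective C.subtype_injective, (hz.centralizer_le heP hez).1] at h
    have horb : Nat.card (MulAction.orbit (ConjAct C) e) ≤ 9 := by
      rw [← hE9]
      refine Nat.card_mono (Set.toFinite _) ?_
      rintro _ ⟨g, rfl⟩
      show g • e ∈ E
      rw [ConjAct.smul_def]
      exact hEn.conj_mem e heE _
    have hmul := (MulAction.stabilizer (ConjAct C) e).card_mul_index
    rw [MulAction.index_stabilizer, ← Nat.card_coe_set_eq, ConjAct.stabilizer_eq_centralizer] at hmul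
    have hC' : Nat.card (ConjAct C) = 108 := hC108
    have hcard : Nat.card (MulAction.orbit (ConjAct C) e) *
        Nat.card (Subgroup.centralizer ({e} : Set C)) = 108 := by
      rw [← hC', ← hmul, mul_comm]
      rfl
    have hle9 := Nat.le_of_dvd (by norm_num) hcent
    have := Nat.mul_le_mul horb hle9
    omega
  intro c hc
  have hconj : ∀ g : C, MulAut.conj g • P' = P' := fun g => hone _
  rw [Subgroup.mem_normalizer_iff]
  have hnormal : (P' : Subgroup C).Normal := by
    haveI : Subsingleton (Sylow 3 C) := ⟨fun A B => (hone A).trans (hone B).symm⟩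
    exact Sylow.normal_of_subsingleton P'
  intro v
  constructor
  · intro hv
    exact hnormal.conj_mem ⟨v, hPC hv⟩ hv ⟨c, hc⟩
  · intro hv
    have := hnormal.conj_mem ⟨c * v * c⁻¹, hPC hv⟩ hv ⟨c, hc⟩⁻¹
    simpa [Subgroup.mem_subgroupOf, P', Sylow.coe_subtype, mul_assoc] using this

/-- Distinct Sylow `3`-subgroups meet trivially. -/
theorem ThreeData.trivial_inter (D : ThreeData N Q) {P R : Sylow 3 N} {u : N}
    (huP : u ∈ (P : Subgroup N)) (huR : u ∈ (R : Subgroup N)) (hu : u ≠ 1) : P = R := by
  haveI : Fact (Nat.Prime 3) := ⟨Nat.prime_three⟩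
  have main : ∀ {z : N}, D.IsCentre P z → z ∈ (R : Subgroup N) → P = R := by
    intro z hz hzR
    obtain ⟨y, hy⟩ := D.exists_isCentre R
    have hyz : Subgroup.zpowers z = Subgroup.zpowers y := by
      refine Subgroup.eq_of_le_of_card_ge (Subgroup.zpowers_le.mpr ((hy.2.2.2 z hzR hz.2.1).mp hz.q)) ?_
      rw [hy.card_zpowers, hz.card_zpowers]
    have hRC : (R : Subgroup N) ≤ Subgroup.centralizer ({z} : Set N) := fun v hv => by
      rw [Subgroup.mem_centralizer_singleton_iff]
      obtain ⟨k, hk⟩ := Subgroup.mem_zpowers_iff.mp (hyz ▸ Subgroup.mem_zpowers z)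
      rw [← hk]
      exact ((show Commute v y from hy.2.2.1 v hv).zpow_right k).eq
    have hle := hRC.trans hz.le_normalizer
    have hsup := R.isPGroup'.to_sup_of_normal_right' P.isPGroup' hle
    have heq : (R : Subgroup N) ⊔ (P : Subgroup N) = (P : Subgroup N) := P.3 hsup le_sup_right
    exact (Sylow.ext (R.3 P.isPGroup' (heq ▸ le_sup_left)) : P = R)
  obtain ⟨z, hz⟩ := D.exists_isCentre P
  by_cases huz : u ∈ Subgroup.zpowers z
  · refine main hz ?_
    have h : Subgroup.zpowers u = Subgroup.zpowers z :=
      Subgroup.eq_of_le_of_card_ge (Subgroup.zpowers_le.mpr huz)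
        (by rw [hz.card_zpowers, Nat.card_zpowers, D.order_three huP hu])
    exact (Subgroup.zpowers_le.mpr huR : Subgroup.zpowers u ≤ _) (h ▸ Subgroup.mem_zpowers z)
  · obtain ⟨y, hy⟩ := D.exists_isCentre R
    have huy : u ∉ Subgroup.zpowers y := fun h =>
      huz ((hz.2.2.2 u huP hu).mp ((hy.2.2.2 u huR hu).mpr h))
    refine main hz ((hy.centralizer_le huR huy).2 ?_)
    exact Subgroup.mem_centralizer_singleton_iff.mpr (hz.2.2.1 u huP).symm

theorem ThreeData.card_sylows [IsSimpleGroup N] (D : ThreeData N Q) (hN : Nat.card N = 6048) :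
    Nat.card (Sylow 3 N) = 28 := by
  haveI : Fact (Nat.Prime 3) := ⟨Nat.prime_three⟩
  obtain ⟨P⟩ := (inferInstance : Nonempty (Sylow 3 N))
  have hidx : (P : Subgroup N).index = 224 := by
    have := (P : Subgroup N).card_mul_index
    rw [D.card_sylow P, hN] at this
    omega
  have hd : Nat.card (Sylow 3 N) ∣ 224 := hidx ▸ Sylow.card_dvd_index P
  let s : Set (Sylow 3 N) := {P}ᶜ
  have hfree : ∀ R : Sylow 3 N, R ≠ P → ∀ h : (P : Subgroup N), h • R = R → h = 1 := by
    intro R hR h hfix
    by_contra h1
    have hmem : (h : N) ∈ Subgroup.normalizer ((R : Subgroup N) : Set N) :=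
      Sylow.smul_eq_iff_mem_normalizer.mp hfix
    have hle : Subgroup.zpowers (h : N) ≤ Subgroup.normalizer ((R : Subgroup N) : Set N) :=
      Subgroup.zpowers_le.mpr hmem
    have hp : IsPGroup 3 (Subgroup.zpowers (h : N)) :=
      P.isPGroup'.to_le (Subgroup.zpowers_le.mpr h.2)
    obtain ⟨T, hT⟩ := (hp.to_sup_of_normal_right' R.isPGroup' hle).exists_le_sylow
    have hTR : T = R := Sylow.ext
      ((R.3 T.isPGroup' (le_sup_right.trans hT)).symm ▸ rfl)
    exact hR (D.trivial_inter (hTR ▸ hT (Subgroup.mem_sup_left (Subgroup.mem_zpowers _))) h.2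
      fun e => h1 (Subtype.ext e))
  have hdiv : 27 ∣ Nat.card (Sylow 3 N) - 1 := by
    have hinv : ∀ h : (P : Subgroup N), ∀ R ∈ s, h • R ∈ s := by
      intro h R hR e
      apply hR
      have hP : h • P = P := Sylow.smul_eq_iff_mem_normalizer.mpr (Subgroup.le_normalizer h.2)
      exact (MulAction.injective h) ((show h • R = P from e).trans hP.symm)
    letI act : MulAction (P : Subgroup N) s :=
      { smul := fun h R => ⟨h • R.1, hinv h R.1 R.2⟩
        one_smul := fun R => Subtype.ext (one_smul _ _)
        mul_smul := fun a b R => Subtype.ext (mul_smul _ _ _) }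
    have hstab : ∀ R : s, MulAction.stabilizer (P : Subgroup N) R = ⊥ := fun R =>
      (Subgroup.eq_bot_iff_forall _).mpr fun h hh => hfree R.1 R.2 h (congrArg Subtype.val hh)
    have h27 : 27 ∣ Nat.card s := by
      rw [Nat.card_congr (MulAction.selfEquivSigmaOrbits (P : Subgroup N) s)]
      haveI : Fintype (Quotient (MulAction.orbitRel (P : Subgroup N) s)) := Fintype.ofFinite _
      rw [Nat.card_sigma]
      refine Finset.dvd_sum fun q _ => ?_
      have h := (MulAction.stabilizer (P : Subgroup N) q.out).card_mul_index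
      rw [MulAction.index_stabilizer, hstab, Subgroup.card_bot, one_mul, D.card_sylow P,
        ← Nat.card_coe_set_eq] at h
      exact dvd_of_eq h.symm
    rwa [Nat.card_coe_set_eq, Set.ncard_compl, Set.ncard_singleton] at h27
  have key : ∀ d ∈ Nat.divisors 224, 27 ∣ d - 1 → d = 1 ∨ d = 28 := by decide +kernel
  rcases key _ (Nat.mem_divisors.mpr ⟨hd, by norm_num⟩) hdiv with h | h
  · exfalso
    haveI : Subsingleton (Sylow 3 N) := (Nat.card_eq_one_iff_unique.mp h).1
    have hP := D.card_sylow P
    rcases (Sylow.normal_of_subsingleton P).eq_bot_or_eq_top with e | e <;> rw [e] at hP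
    · rw [Subgroup.card_bot] at hP; omega
    · rw [Subgroup.card_top, hN] at hP; omega
  · exact h

end CfsgLib.GTwoTwoUniq80
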