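import Cfsg.Agent.GTwoTwoUniq80.Coord

/-!
A group of order `12096` with a simple normal subgroup as above is the normaliser in the symmetric
group of degree `28` of a fixed subgroup.
-/

set_option autoImplicit false

namespace CfsgLib.GTwoTwoUniq80

open Cfsg MulAction

/-- The four generators. -/
def gens : Set (Equiv.Perm (Fin 28)) :=
  {σ | (∀ p, (σ p : ℕ) = tr 9 p) ∨ (∀ p, (σ p : ℕ) = tr 3 p) ∨
    (∀ p, (σ p : ℕ) = sgTable.getD p 27) ∨ ∀ p, (σ p : ℕ) = wf 5 4 22 25 p}

/-- The group generated by the four generators. -/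
def permGroup : Subgroup (Equiv.Perm (Fin 28)) := Subgroup.closure gens

/-- Its normaliser. -/
def bigGroup : Subgroup (Equiv.Perm (Fin 28)) :=
  Subgroup.normalizer (permGroup : Set (Equiv.Perm (Fin 28)))

theorem sg_lt' : ∀ p < 28, sgTable.getD p 27 < 28 := by decide +kernel

theorem sgPow_lt : ∀ (i p : ℕ), p < 28 → sgPow i p < 28
  | 0, _, h => h
  | i + 1, p, h => sg_lt' _ (sgPow_lt i p h)

theorem sgPow_lt' : ∀ (i p : ℕ), p < 27 → sgPow i p < 27
  | 0, _, h => h
  | i + 1, p, h => sg_lt _ (sgPow_lt' i p h)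

theorem sgPow_add : ∀ (i j p : ℕ), sgPow (i + j) p = sgPow i (sgPow j p)
  | 0, j, p => by rw [Nat.zero_add]; rfl
  | i + 1, j, p => by
    rw [Nat.add_right_comm, sgPow, sgPow, sgPow_add i j p]

theorem sgPow_zero_pt : ∀ i : ℕ, sgPow i 0 = 0
  | 0 => rfl
  | i + 1 => by rw [sgPow, sgPow_zero_pt i]; rfl

theorem sgPow_top : ∀ i : ℕ, sgPow i 27 = 27
  | 0 => rfl
  | i + 1 => by rw [sgPow, sgPow_top i]; rfl

theorem hm_zero : ∀ p < 27, hm p 0 = p ∧ hm 0 p = p := by decide +kernel

theorem tr_lt {h : ℕ} (hh : h < 27) {p : ℕ} (hp : p < 28) : tr h p < 28 := by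
  unfold tr
  split_ifs with h'
  · exact (hm_lt h hh p h').trans (by norm_num)
  · norm_num

theorem tr_path : ∀ p < 27, ∃ a < 3, ∃ b < 3, ∃ c < 3, ∃ d < 3, ∀ q < 28,
    tr p q = (tr 9)^[a] ((tr 3)^[b] ((tr 9)^[c] ((tr 3)^[d] q))) := by
  decide +kernel

theorem cube_shift : ∀ h < 27, ∀ i < 8, (∀ p < 27, hm h (sgPow i (hm h (sgPow i (hm h (sgPow i p)))))
    = p) → i = 0 := by
  decide +kernel

theorem tr_cube : ∀ p < 28, tr 9 (tr 9 (tr 9 p)) = p ∧ tr 3 (tr 3 (tr 3 p)) = p := by decide +kernel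

/-- The possible images of `9` and of the power of `k`. -/
def goodPairs : Finset (Fin 27 × Fin 8) :=
  Finset.univ.filter fun q => q.1 ≠ 0 ∧ hm q.1 (sgPow q.2 q.1) = sgPow (2 * q.2) q.1

theorem card_goodPairs : goodPairs.card = 16 := by decide +kernel

variable {N : Type*} [Group N] [Finite N] {el : ℕ → N} {k w : N} {pt : ℕ → Sylow 3 N}
  {e v₀ v₁ v₂ : ℕ}

omit [Finite N] in
theorem Coord.bounds (C : Coord N el k w pt e v₀ v₁ v₂) : v₀ < 27 ∧ v₁ < 27 ∧ v₂ < 27 := by
  have h : ∀ v ∈ offCentre, v < 27 := by decide +kernel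
  refine ⟨?_, h _ C.one_mem, h _ C.two_mem⟩
  have := C.zero_mem
  simp at this
  omega

omit [Finite N] in
theorem Coord.wf_lt (C : Coord N el k w pt e v₀ v₁ v₂) {p : ℕ} (hp : p < 28) :
    wf e v₀ v₁ v₂ p < 28 := by
  obtain ⟨h0, h1, h2⟩ := C.bounds
  unfold wf
  dsimp only
  split_ifs <;> first | omega | (refine sgPow_lt _ _ ?_; omega)

omit [Finite N] in
theorem Coord.kpow_act (C : Coord N el k w pt e v₀ v₁ v₂) :
    ∀ i, ∀ p < 28, k ^ i • pt p = pt (sgPow i p) := by
  intro i
  induction i with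
  | zero => intro p _; simp [sgPow]
  | succ i ih => intro p hp; rw [pow_succ', mul_smul, ih p hp, C.k_act _ (sgPow_lt i p hp)]; rfl

omit [Finite N] in
theorem Coord.affine (C : Coord N el k w pt e v₀ v₁ v₂) {h : ℕ} (hh : h < 27)
    (ht : wf e v₀ v₁ v₂ h < 27) : affB (phi (wf e v₀ v₁ v₂) h) = true := by
  set W := wf e v₀ v₁ v₂ with hW
  have hi : hinv (W h) < 27 := (hinv_spec _ ht).1
  have hact : ∀ p < 28,
      (w * el (hinv (W h)) * w * el h * w) • pt p = pt (phi W h p) := by
    intro p hp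
    rw [mul_smul, mul_smul, mul_smul, mul_smul, C.w_act p hp, C.el_act h hh _ (C.wf_lt hp),
      C.w_act _ (tr_lt hh (C.wf_lt hp)), C.el_act _ hi _ (C.wf_lt (tr_lt hh (C.wf_lt hp))),
      C.w_act _ (tr_lt hi (C.wf_lt (tr_lt hh (C.wf_lt hp))))]
    rfl
  have hlt : ∀ p < 28, phi W h p < 28 := fun p hp =>
    C.wf_lt (tr_lt hi (C.wf_lt (tr_lt hh (C.wf_lt hp))))
  have h27 : phi W h 27 = 27 := by
    show W (tr (hinv (W h)) (W (tr h (W 27)))) = 27
    rw [show W 27 = 0 from rfl, show tr h 0 = hm h 0 from rfl, (hm_zero h hh).1,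
      show tr (hinv (W h)) (W h) = hm (hinv (W h)) (W h) from if_pos ht, (hinv_spec _ ht).2]
    rfl
  obtain ⟨c, hc, i, hi8, hg⟩ := C.stab _ ((hact 27 (by norm_num)).trans (by rw [h27]))
  have hval : ∀ p < 27, phi W h p = hm c (sgPow i p) := by
    intro p hp
    have h28 : p < 28 := by omega
    have h1 := hact p h28
    rw [hg, mul_smul, C.kpow_act i p h28, C.el_act c hc _ (sgPow_lt i p h28), tr,
      if_pos (sgPow_lt' i p hp)] at h1
    exact (C.pt_inj _ ((hm_lt c hc _ (sgPow_lt' i p hp)).trans (by norm_num)) _ (hlt p h28) h1).symm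
  have hc0 : phi W h 0 = c := by
    rw [hval 0 (by norm_num), sgPow_zero_pt, (hm_zero c hc).1]
  show affB (phi W h) = true
  simp only [affB, hc0, List.any_eq_true, List.all_eq_true, List.mem_range, beq_iff_eq]
  exact ⟨i, hi8, hval⟩

omit [Finite N] in
/-- The data are forced. -/
theorem Coord.forced (C : Coord N el k w pt e v₀ v₁ v₂) :
    e = 5 ∧ v₀ = 4 ∧ v₁ = 22 ∧ v₂ = 25 := by
  have hs := search
  simp only [searchOK, List.all_eq_true] at hs
  have h1 := C.affine (h := 1) (by norm_num) (show wf e v₀ v₁ v₂ 1 < 27 from (by norm_num : (1 : ℕ) < 27))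
  have h3 := C.affine (h := 3) (by norm_num) (show sgPow (e * 0 % 8) v₀ < 27 from
    sgPow_lt' _ _ C.bounds.1)
  have h := hs e C.exp_mem v₀ C.zero_mem v₁ C.one_mem v₂ C.two_mem
  simp only [h1, h3, Bool.and_self, Bool.not_true, Bool.false_or, Bool.and_eq_true, beq_iff_eq] at h
  exact ⟨h.1.1.1, h.1.1.2, h.1.2, h.2⟩

section action

variable (C : Coord N el k w pt 5 4 22 25)

/-- The numbering of the points. -/
noncomputable def Coord.label : Fin 28 ≃ Sylow 3 N :=
  Equiv.ofBijective (fun p => pt p) ⟨fun p q h => Fin.ext (C.pt_inj _ p.isLt _ q.isLt h), fun R => by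
    obtain ⟨p, hp, rfl⟩ := C.pt_surj R
    exact ⟨⟨p, hp⟩, rfl⟩⟩

/-- Automorphisms as permutations of the `28` points. -/
noncomputable def Coord.autPerm : MulAut N →* Equiv.Perm (Fin 28) :=
  (C.label.symm.permCongrHom.toMonoidHom).comp (MulAction.toPermHom (MulAut N) (Sylow 3 N))

/-- The group as permutations of the `28` points. -/
noncomputable def Coord.perm : N →* Equiv.Perm (Fin 28) := C.autPerm.comp MulAut.conj

omit [Finite N] in
theorem Coord.label_apply (p : Fin 28) : C.label p = pt p := rfl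

omit [Finite N] in
theorem Coord.autPerm_label (α : MulAut N) (p : Fin 28) :
    C.label (C.autPerm α p) = α • C.label p := by
  show C.label (C.label.symm (α • C.label p)) = _
  rw [Equiv.apply_symm_apply]

omit [Finite N] in
theorem Coord.perm_val {n : N} {p : Fin 28} {q : ℕ} (hq : q < 28) (h : n • pt p = pt q) :
    (C.perm n p : ℕ) = q := by
  refine C.pt_inj _ (C.perm n p).isLt _ hq ?_
  rw [← C.label_apply, ← h]
  exact C.autPerm_label (MulAut.conj n) p

omit [Finite N] in
theorem Coord.perm_el {h : ℕ} (hh : h < 27) (p : Fin 28) : (C.perm (el h) p : ℕ) = tr h p :=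
  C.perm_val (tr_lt hh p.isLt) (C.el_act h hh _ p.isLt)

omit [Finite N] in
theorem Coord.perm_k (p : Fin 28) : (C.perm k p : ℕ) = sgTable.getD p 27 :=
  C.perm_val (sg_lt' _ p.isLt) (C.k_act _ p.isLt)

omit [Finite N] in
theorem Coord.perm_kpow (i : ℕ) (p : Fin 28) : (C.perm (k ^ i) p : ℕ) = sgPow i p :=
  C.perm_val (sgPow_lt i _ p.isLt) (C.kpow_act i _ p.isLt)

omit [Finite N] in
theorem Coord.perm_w (p : Fin 28) : (C.perm w p : ℕ) = wf 5 4 22 25 p :=
  C.perm_val (C.wf_lt p.isLt) (C.w_act _ p.isLt)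

omit [Finite N] in
theorem Coord.perm_fix {n : N} (h : C.perm n 27 = 27) :
    ∃ a < 27, ∃ i < 8, ∀ p : Fin 28, (C.perm n p : ℕ) = tr a (sgPow i p) := by
  have h' : n • pt 27 = pt 27 := by
    have := C.autPerm_label (MulAut.conj n) 27
    rw [show C.autPerm (MulAut.conj n) 27 = 27 from h, C.label_apply] at this
    exact this.symm
  obtain ⟨a, ha, i, hi, rfl⟩ := C.stab n h'
  refine ⟨a, ha, i, hi, fun p => ?_⟩
  rw [map_mul, Equiv.Perm.mul_apply, C.perm_el ha, C.perm_kpow]

omit [Finite N] in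
theorem Coord.perm_injective [IsSimpleGroup N] : Function.Injective C.perm := by
  rw [← MonoidHom.ker_eq_bot_iff]
  rcases (MonoidHom.normal_ker C.perm).eq_bot_or_eq_top with h | h
  · exact h
  · exfalso
    have hw : C.perm w = 1 := by rw [← MonoidHom.mem_ker, h]; trivial
    have := C.perm_w 27
    rw [hw] at this
    exact absurd this (by decide +kernel)

omit [Finite N] in
theorem conj_aut_eq (α : MulAut N) (n : N) :
    α * MulAut.conj n * α⁻¹ = MulAut.conj (α n) := by
  ext x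
  simp

omit [Finite N] in
theorem Coord.autPerm_injective [IsSimpleGroup N] : Function.Injective C.autPerm := by
  rw [injective_iff_map_eq_one]
  intro α h
  ext n
  show α n = n
  apply C.perm_injective
  show C.autPerm (MulAut.conj (α n)) = C.autPerm (MulAut.conj n)
  rw [← conj_aut_eq α n, map_mul, map_mul, map_inv, h]
  simp

omit [Finite N] in
theorem Coord.el_mem {h : ℕ} (hh : h < 27) : C.perm (el h) ∈ permGroup := by
  have h9 : C.perm (el 9) ∈ permGroup :=
    Subgroup.subset_closure (Or.inl fun p => C.perm_el (by norm_num) p)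
  have h3 : C.perm (el 3) ∈ permGroup :=
    Subgroup.subset_closure (Or.inr (Or.inl fun p => C.perm_el (by norm_num) p))
  obtain ⟨a, -, b, -, c, -, d, -, hp⟩ := tr_path h hh
  have key : ∀ (t : ℕ), t < 27 → ∀ (j : ℕ) (p : Fin 28),
      ((C.perm (el t) ^ j) p : ℕ) = (tr t)^[j] p := by
    intro t ht j
    induction j with
    | zero => intro p; rfl
    | succ j ih =>
      intro p
      rw [pow_succ', Equiv.Perm.mul_apply, C.perm_el ht, ih, Function.iterate_succ_apply']
  have heq : C.perm (el h) =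
      C.perm (el 9) ^ a * C.perm (el 3) ^ b * C.perm (el 9) ^ c * C.perm (el 3) ^ d := by
    refine Equiv.ext fun p => Fin.ext ?_
    simp only [Equiv.Perm.mul_apply]
    rw [C.perm_el hh, hp _ p.isLt, key 9 (by norm_num), key 3 (by norm_num), key 9 (by norm_num),
      key 3 (by norm_num)]
  rw [heq]
  exact mul_mem (mul_mem (mul_mem (pow_mem h9 _) (pow_mem h3 _)) (pow_mem h9 _)) (pow_mem h3 _)

omit [Finite N] in
theorem Coord.range_perm : C.perm.range = permGroup := by
  refine le_antisymm ?_ ((Subgroup.closure_le _).mpr ?_)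
  · rintro _ ⟨n, rfl⟩
    have hk : C.perm k ∈ permGroup :=
      Subgroup.subset_closure (Or.inr (Or.inr (Or.inl C.perm_k)))
    have hw : C.perm w ∈ permGroup :=
      Subgroup.subset_closure (Or.inr (Or.inr (Or.inr C.perm_w)))
    have hstab : ∀ g : N, g • pt 27 = pt 27 → C.perm g ∈ permGroup := by
      intro g hg
      obtain ⟨a, ha, i, -, rfl⟩ := C.stab g hg
      rw [map_mul, map_pow]
      exact mul_mem (C.el_mem ha) (pow_mem hk i)
    obtain ⟨q, hq, hq'⟩ := C.pt_surj (n • pt 27)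
    rcases Nat.lt_or_ge q 27 with h | h
    · have hx : (el q * w) • pt 27 = pt q := by
        rw [mul_smul, C.w_act 27 (by norm_num), C.el_act q h _ (C.wf_lt (by norm_num))]
        show pt (hm q 0) = pt q
        rw [(hm_zero q h).1]
      have hmem := hstab ((el q * w)⁻¹ * n) (by
        rw [mul_smul, ← hq', ← hx, inv_smul_smul])
      rw [show C.perm n = C.perm (el q) * C.perm w * C.perm ((el q * w)⁻¹ * n) by
        rw [← map_mul, ← map_mul, mul_inv_cancel_left]]
      exact mul_mem (mul_mem (C.el_mem h) hw) hmem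
    · exact hstab n (by rw [← hq', show q = 27 by omega])
  · rintro σ (h | h | h | h)
    · exact ⟨el 9, Equiv.ext fun p => Fin.ext ((C.perm_el (by norm_num) p).trans (h p).symm)⟩
    · exact ⟨el 3, Equiv.ext fun p => Fin.ext ((C.perm_el (by norm_num) p).trans (h p).symm)⟩
    · exact ⟨k, Equiv.ext fun p => Fin.ext ((C.perm_k p).trans (h p).symm)⟩
    · exact ⟨w, Equiv.ext fun p => Fin.ext ((C.perm_w p).trans (h p).symm)⟩

omit [Finite N] in
theorem Coord.autPerm_mem (α : MulAut N) : C.autPerm α ∈ bigGroup := by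
  have key : ∀ β : MulAut N, ∀ x ∈ permGroup, C.autPerm β * x * (C.autPerm β)⁻¹ ∈ permGroup := by
    intro β x hx
    rw [← C.range_perm] at hx ⊢
    obtain ⟨n, rfl⟩ := hx
    refine ⟨β n, ?_⟩
    show C.autPerm (MulAut.conj (β n)) = _
    rw [← conj_aut_eq β n, map_mul, map_mul, map_inv]
    rfl
  rw [bigGroup, Subgroup.mem_normalizer_iff]
  refine fun x => ⟨key α x, fun hx => ?_⟩
  have h := key α⁻¹ _ hx
  rwa [map_inv, inv_inv, show (C.autPerm α)⁻¹ * (C.autPerm α * x * (C.autPerm α)⁻¹) * C.autPerm α = x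
    by group] at h

end action

/-- A permutation as a function on numbers. -/
def natFun (f : Equiv.Perm (Fin 28)) (p : ℕ) : ℕ :=
  if h : p < 28 then (f ⟨p, h⟩ : ℕ) else 0

theorem natFun_val (f : Equiv.Perm (Fin 28)) (p : Fin 28) : natFun f p = (f p : ℕ) :=
  dif_pos p.isLt

theorem natFun_lt (f : Equiv.Perm (Fin 28)) {p : ℕ} (hp : p < 28) : natFun f p < 28 := by
  rw [natFun, dif_pos hp]; exact Fin.isLt _

omit [Finite N] in
/-- An element of the normaliser fixing two points is given by one of sixteen pairs. -/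
theorem Coord.exists_pair (C : Coord N el k w pt 5 4 22 25) {f : Equiv.Perm (Fin 28)}
    (hf : f ∈ bigGroup) (h27 : f 27 = 27) (h0 : f 0 = 0) :
    ∃ q ∈ goodPairs, natFun f 9 = (q.1 : ℕ) ∧
      (∀ p < 28, natFun f (tr 9 p) = tr q.1 (natFun f p)) ∧
      ∀ p < 28, natFun f (tr 3 p) = tr (sgPow q.2 q.1) (natFun f p) := by
  have himg : ∀ n : N, C.perm n 27 = 27 → ∃ a < 27, ∃ i < 8,
      (∀ p : Fin 28, (f (C.perm n p) : ℕ) = tr a (sgPow i (f p : ℕ))) ∧
        (C.perm n ^ 3 = 1 → i = 0) := by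
    intro n hn
    have hx : C.perm n ∈ permGroup := by rw [← C.range_perm]; exact ⟨n, rfl⟩
    rw [bigGroup, Subgroup.mem_normalizer_iff] at hf
    have hm' := (hf (C.perm n)).mp hx
    rw [← C.range_perm] at hm'
    obtain ⟨n', hn'⟩ := hm'
    have hn27 : C.perm n' 27 = 27 := by
      rw [hn', Equiv.Perm.mul_apply, Equiv.Perm.mul_apply,
        show f⁻¹ 27 = 27 from Equiv.Perm.inv_eq_iff_eq.mpr h27.symm, hn, h27]
    obtain ⟨a, ha, i, hi, hact⟩ := C.perm_fix hn27
    refine ⟨a, ha, i, hi, fun p => ?_, fun h3 => ?_⟩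
    · rw [← hact, hn']
      simp
    · refine cube_shift a ha i hi fun p hp => ?_
      have hF : ∀ q < 27, ∀ hq : q < 28, (C.perm n' ⟨q, hq⟩ : ℕ) = hm a (sgPow i q) := fun q hq hq' => by
        rw [hact]; exact if_pos (sgPow_lt' i q hq)
      have hp3 : C.perm n' ^ 3 = 1 := by rw [hn', conj_pow, h3]; group
      have h1 : ((C.perm n' ^ 3) ⟨p, by omega⟩ : ℕ) = p := by rw [hp3]; rfl
      rw [pow_succ', pow_two, Equiv.Perm.mul_apply, Equiv.Perm.mul_apply] at h1
      have hb1 := hm_lt a ha _ (sgPow_lt' i p hp)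
      have e1 : C.perm n' ⟨p, by omega⟩ = ⟨hm a (sgPow i p), hb1.trans (by norm_num)⟩ :=
        Fin.ext (hF p hp _)
      have e2 : C.perm n' ⟨hm a (sgPow i p), hb1.trans (by norm_num)⟩ =
          ⟨hm a (sgPow i (hm a (sgPow i p))),
            (hm_lt a ha _ (sgPow_lt' i _ hb1)).trans (by norm_num)⟩ :=
        Fin.ext (hF _ hb1 _)
      rw [e1, e2, hF _ (hm_lt a ha _ (sgPow_lt' i _ hb1))] at h1
      exact h1
  have h27' : natFun f 27 = 27 := (natFun_val f 27).trans (congrArg Fin.val h27)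
  have h0' : natFun f 0 = 0 := (natFun_val f 0).trans (congrArg Fin.val h0)
  have hfix : ∀ t < 27, C.perm (el t) 27 = 27 := fun t ht => Fin.ext ((C.perm_el ht 27).trans
    (if_neg (lt_irrefl _)))
  have htr : ∀ t, t < 27 → C.perm (el t) ^ 3 = 1 →
      natFun f t < 27 ∧ ∀ p < 28, natFun f (tr t p) = tr (natFun f t) (natFun f p) := by
    intro t ht h3
    obtain ⟨a, ha, i, -, hact, hi0⟩ := himg _ (hfix t ht)
    rw [hi0 h3] at hact
    have h' : ∀ p < 28, natFun f (tr t p) = tr a (natFun f p) := by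
      intro p hp
      have := hact ⟨p, hp⟩
      rw [show C.perm (el t) ⟨p, hp⟩ = ⟨tr t p, tr_lt ht hp⟩ from Fin.ext (C.perm_el ht _)] at this
      rw [natFun, dif_pos (tr_lt ht hp), natFun, dif_pos hp]
      exact this
    have hta : natFun f t = a := by
      have h := h' 0 (by norm_num)
      rwa [show tr t 0 = hm t 0 from rfl, (hm_zero t ht).1, h0', show tr a 0 = hm a 0 from rfl,
        (hm_zero a ha).1] at h
    rw [hta]
    exact ⟨ha, h'⟩
  have hcube : C.perm (el 9) ^ 3 = 1 ∧ C.perm (el 3) ^ 3 = 1 := by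
    constructor <;> refine Equiv.ext fun p => Fin.ext ?_ <;>
      rw [pow_succ', pow_two, Equiv.Perm.mul_apply, Equiv.Perm.mul_apply, C.perm_el (by norm_num),
        C.perm_el (by norm_num), C.perm_el (by norm_num)]
    · exact (tr_cube p p.isLt).1
    · exact (tr_cube p p.isLt).2
  obtain ⟨h9, e9⟩ := htr 9 (by norm_num) hcube.1
  obtain ⟨h3, e3⟩ := htr 3 (by norm_num) hcube.2
  -- the image of `k`
  obtain ⟨a, ha, i, hi, hact, -⟩ := himg k (Fin.ext ((C.perm_k 27).trans rfl))
  have hk' : ∀ p < 28, natFun f (sgTable.getD p 27) = tr a (sgPow i (natFun f p)) := by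
    intro p hp
    have := hact ⟨p, hp⟩
    rw [show C.perm k ⟨p, hp⟩ = ⟨sgTable.getD p 27, sg_lt' p hp⟩ from Fin.ext (C.perm_k _)] at this
    rw [natFun, dif_pos (sg_lt' p hp), natFun, dif_pos hp]
    exact this
  have ha0 : a = 0 := by
    have h := hk' 0 (by norm_num)
    rwa [show sgTable.getD 0 27 = 0 from rfl, h0', sgPow_zero_pt, show tr a 0 = hm a 0 from rfl,
      (hm_zero a ha).1, eq_comm] at h
  have hk0 : ∀ p < 28, natFun f p < 27 →
      natFun f (sgTable.getD p 27) = sgPow i (natFun f p) := by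
    intro p hp hlt
    rw [hk' p hp, ha0, tr, if_pos (sgPow_lt' i _ hlt), (hm_zero _ (sgPow_lt' i _ hlt)).2]
  have h39 : natFun f 3 = sgPow i (natFun f 9) := hk0 9 (by norm_num) h9
  refine ⟨⟨⟨natFun f 9, h9⟩, ⟨i, hi⟩⟩, Finset.mem_filter.mpr ⟨Finset.mem_univ _, ?_, ?_⟩, rfl, e9,
    fun p hp => by rw [e3 p hp, h39]⟩
  · intro hz
    have hz' : natFun f 9 = 0 := congrArg Fin.val hz
    rw [natFun, dif_pos (show 9 < 28 by norm_num)] at hz'
    have := f.injective (a₁ := ⟨9, by norm_num⟩) (a₂ := 0) (by rw [h0]; exact Fin.ext hz')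
    exact absurd this (by decide)
  · show hm (natFun f 9) (sgPow i (natFun f 9)) = sgPow (2 * i) (natFun f 9)
    have h12 : natFun f 12 = hm (natFun f 9) (natFun f 3) :=
      (e9 3 (by norm_num)).trans (if_pos h3)
    have h12' : natFun f 12 = sgPow i (natFun f 3) := hk0 3 (by norm_num) h3
    rw [← h39, ← h12, h12', h39, ← sgPow_add, two_mul]

omit [Finite N] in
theorem Coord.card_bigGroup (C : Coord N el k w pt 5 4 22 25) : Nat.card bigGroup ≤ 12096 := by
  classical
  set S := stabilizer bigGroup (27 : Fin 28) with hS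
  set T := stabilizer S (0 : Fin 28) with hT
  have hinj : ∃ F : T → goodPairs, Function.Injective F := by
    have hex : ∀ t : T, ∃ q ∈ goodPairs, natFun (t : Equiv.Perm (Fin 28)) 9 = (q.1 : ℕ) ∧
        (∀ p < 28, natFun (t : Equiv.Perm (Fin 28)) (tr 9 p) = tr q.1 (natFun t p)) ∧
        ∀ p < 28, natFun (t : Equiv.Perm (Fin 28)) (tr 3 p) = tr (sgPow q.2 q.1) (natFun t p) :=
      fun t => C.exists_pair t.1.1.2 (mem_stabilizer_iff.mp t.1.2) (mem_stabilizer_iff.mp t.2)
    choose F hF h9 e9 e3 using hex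
    refine ⟨fun t => ⟨F t, hF t⟩, fun t t' h => ?_⟩
    have hq : F t = F t' := congrArg Subtype.val h
    have hpow : ∀ (s : ℕ), s = 9 ∨ s = 3 → ∀ j : ℕ, ∀ p < 28, natFun (t : Equiv.Perm (Fin 28)) p =
        natFun t' p → (tr s)^[j] p < 28 ∧
          natFun (t : Equiv.Perm (Fin 28)) ((tr s)^[j] p) = natFun t' ((tr s)^[j] p) := by
      intro s hs j
      induction j with
      | zero => intro p hp he; exact ⟨hp, he⟩
      | succ j ih =>
        intro p hp he
        obtain ⟨hlt, heq⟩ := ih p hp he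
        rw [Function.iterate_succ_apply']
        refine ⟨tr_lt (by omega) hlt, ?_⟩
        rcases hs with rfl | rfl
        · rw [e9 t _ hlt, e9 t' _ hlt, hq, heq]
        · rw [e3 t _ hlt, e3 t' _ hlt, hq, heq]
    refine Subtype.ext (Subtype.ext (Subtype.ext (Equiv.ext fun p => Fin.ext ?_)))
    rw [← natFun_val, ← natFun_val]
    rcases Nat.lt_or_ge (p : ℕ) 27 with hp | hp
    · obtain ⟨a, -, b, -, c, -, d, -, hpath⟩ := tr_path p hp
      have h := hpath 0 (by norm_num)
      rw [show tr (p : ℕ) 0 = hm p 0 from rfl, (hm_zero _ hp).1] at h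
      obtain ⟨l1, q1⟩ := hpow 3 (Or.inr rfl) d 0 (by norm_num) (by
        rw [natFun, dif_pos (show (0 : ℕ) < 28 by norm_num), natFun,
          dif_pos (show (0 : ℕ) < 28 by norm_num)]
        exact congrArg Fin.val ((mem_stabilizer_iff.mp t.2).trans (mem_stabilizer_iff.mp t'.2).symm))
      obtain ⟨l2, q2⟩ := hpow 9 (Or.inl rfl) c _ l1 q1
      obtain ⟨l3, q3⟩ := hpow 3 (Or.inr rfl) b _ l2 q2
      obtain ⟨-, q4⟩ := hpow 9 (Or.inl rfl) a _ l3 q3
      rw [h]
      exact q4
    · rw [show p = (27 : Fin 28) from Fin.ext (by have := p.isLt; show (p : ℕ) = 27; omega),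
        natFun_val, natFun_val]
      exact congrArg Fin.val ((mem_stabilizer_iff.mp t.1.2).trans (mem_stabilizer_iff.mp t'.1.2).symm)
  obtain ⟨F, hF⟩ := hinj
  have hTc : Nat.card T ≤ 16 := by
    have := Nat.card_le_card_of_injective F hF
    rwa [Nat.card_eq_finsetCard, card_goodPairs] at this
  have hSi : S.index ≤ 28 := by
    rw [hS, index_stabilizer]
    exact (Set.ncard_le_card _).trans (by rw [Nat.card_fin])
  have hTi : T.index ≤ 27 := by
    rw [hT, index_stabilizer]
    have hsub : orbit S (0 : Fin 28) ⊆ ({27}ᶜ : Set (Fin 28)) := by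
      rintro _ ⟨s, rfl⟩ (hs : s • (0 : Fin 28) = 27)
      have h := hs.trans (mem_stabilizer_iff.mp s.2).symm
      exact absurd (MulAction.injective (s : bigGroup) h) (by decide)
    refine (Set.ncard_le_ncard hsub).trans ?_
    rw [Set.ncard_compl, Set.ncard_singleton, Nat.card_fin]
  have h1 := S.card_mul_index
  have h2 := T.card_mul_index
  calc Nat.card bigGroup = Nat.card T * T.index * S.index := by rw [h2, h1]
    _ ≤ 16 * 27 * 28 := by gcongr
    _ = 12096 := by norm_num

/-- Uniqueness, given the normal subgroup. -/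
theorem nonempty_mulEquiv_bigGroup {G : Type*} [Group G] [Finite G] (N : Subgroup G) [N.Normal]
    [IsSimpleGroup N] (hG : Nat.card G = 12096) (hN : Small N)
    (hC : Subgroup.centralizer (N : Set G) = ⊥) : Nonempty (G ≃* bigGroup) := by
  obtain ⟨Q, D⟩ := exists_threeData hN
  obtain ⟨el, k, w, pt, e, v₀, v₁, v₂, C⟩ := exists_coord D hN.card
  obtain ⟨rfl, rfl, rfl, rfl⟩ := C.forced
  have hker : Function.Injective (MulAut.conjNormal : G →* MulAut N) := by
    rw [injective_iff_map_eq_one]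
    intro g hg
    rw [← Subgroup.mem_bot, ← hC, Subgroup.mem_centralizer_iff]
    intro n hn
    have h := DFunLike.congr_fun hg (⟨n, hn⟩ : N)
    have h' : g * n * g⁻¹ = n := (MulAut.conjNormal_apply g ⟨n, hn⟩).symm.trans (congrArg Subtype.val h)
    exact (mul_inv_eq_iff_eq_mul.mp h').symm
  let Φ : G →* bigGroup := (C.autPerm.comp MulAut.conjNormal).codRestrict bigGroup fun g =>
    C.autPerm_mem _
  have hinj : Function.Injective Φ := fun g g' h =>
    hker (C.autPerm_injective (congrArg Subtype.val h))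
  refine ⟨MulEquiv.ofBijective Φ ((Nat.bijective_iff_injective_and_card Φ).mpr ⟨hinj, ?_⟩)⟩
  have h1 := Nat.card_le_card_of_injective Φ hinj
  have h2 := C.card_bigGroup
  omega

end CfsgLib.GTwoTwoUniq80
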