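import Cfsg.Agent.GTwoTwoUniq80.Good
import Cfsg.Agent.Blocks.PrimeGram.FiveCases

/-!
No simple group of order `12096` is free of elements of order `9`, `14` and `21`: the principal
`7`-block would have degrees `1, 8, 36, 36, 27, 27, 27`, and the values on a `2`-central involution
do not exist.
-/

set_option autoImplicit false

namespace CfsgLib.GTwoTwoUniq80

open Cfsg CfsgLib.Chars CfsgLib.PrimeGram
open scoped ComplexConjugate Classical

/-- The possible sign, degree and value at an involution normalising a Sylow `7`-subgroup. -/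
def optsBig : List (ℤ × ℕ × ℤ) :=
  [(1, 8, 0), (1, 36, -4), (1, 36, 0), (1, 36, 4), (1, 64, -8), (1, 64, -4), (1, 64, 0), (1, 64, 4),
    (1, 64, 8), (-1, 27, -1), (-1, 27, 3), (-1, 48, -4), (-1, 48, 0), (-1, 48, 4)]

/-- An indicator. -/
def indBig (o o' : ℤ × ℕ × ℤ) : ℤ := if o = o' then 1 else 0

/-- The weights: three relations and four multiplicities. -/
def wtBig (o : ℤ × ℕ × ℤ) : ℤ × ℤ × ℤ × ℤ × ℤ × ℤ × ℤ :=
  (o.1 * o.2.1, o.1 * o.2.2, o.1 * o.2.2 ^ 2 * (1728 / (o.2.1 : ℤ)), indBig o (1, 8, 0),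
    indBig o (1, 36, -4), indBig o (1, 36, 0), indBig o (-1, 27, -1))

/-- Weights not of the expected shape. -/
def goodBig (w : ℤ × ℤ × ℤ × ℤ × ℤ × ℤ × ℤ) : Bool :=
  (decide (w.1 = 0 ∧ w.2.1 = 0) &&
    (List.range 120).any fun k => decide ((k : ℤ) * k = w.2.2.1) && decide (k % 3 = 0)) &&
    !decide (w.2.2.2.1 = 1 ∧ w.2.2.2.2.1 = 1 ∧ w.2.2.2.2.2.1 = 1 ∧ w.2.2.2.2.2.2 = 3)

theorem noMultiset_big :
    noMultiset goodBig wtBig optsBig 6 (1, 1, 1728, 0, 0, 0, 0) = true := by decide +kernel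

theorem seven_facts : (3 : ZMod 7) ≠ 0 ∧ (3 : ZMod 7) ^ 6 = 1 ∧ (3 : ZMod 7) ^ 21 = 6 ∧
    (3 : ZMod 7) ^ 14 = 2 ∧ (1 : ZMod 7) ≠ 2 := by decide +kernel

theorem mod_eight : ∀ a ∈ ([-1, 0, 1] : List (ZMod 8)), ∀ b : ZMod 8,
    27 * (a * a) + 6 * (b * b) + 6 * ((2 * b - 7 - a) * (2 * b - 7 - a)) - 12 * (3 * b - 9) ≠ 0 := by
  decide +kernel

/-- The relations at a `2`-central involution have no solution. -/
theorem no_values (a b₁ b₂ g₁ g₂ g₃ : ℤ) (ha : a = -1 ∨ a = 0 ∨ a = 1)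
    (h1 : 1 + 4 * a + 4 * b₁ + 4 * b₂ - ((4 * g₁ + 3) + (4 * g₂ + 3) + (4 * g₃ + 3)) = 0)
    (h2 : 27 - 3 * (4 * b₁) + ((4 * g₁ + 3) + (4 * g₂ + 3) + (4 * g₃ + 3)) = 0)
    (h3 : 216 + 27 * (4 * a) ^ 2 + 6 * ((4 * b₁) ^ 2 + (4 * b₂) ^ 2) -
      8 * ((4 * g₁ + 3) ^ 2 + (4 * g₂ + 3) ^ 2 + (4 * g₃ + 3) ^ 2) = 0) : False := by
  have hg : g₁ + g₂ + g₃ = 3 * b₁ - 9 := by linarith
  have hb : b₂ = 2 * b₁ - 7 - a := by linarith
  have h4 : 27 * (a * a) + 6 * (b₁ * b₁) + 6 * ((2 * b₁ - 7 - a) * (2 * b₁ - 7 - a)) -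
      12 * (3 * b₁ - 9) - 8 * (g₁ * g₁ + g₂ * g₂ + g₃ * g₃) = 0 := by
    have h16 : 16 * (27 * (a * a) + 6 * (b₁ * b₁) + 6 * ((2 * b₁ - 7 - a) * (2 * b₁ - 7 - a)) -
        12 * (3 * b₁ - 9) - 8 * (g₁ * g₁ + g₂ * g₂ + g₃ * g₃)) = 0 := by
      rw [hb] at h3
      linear_combination h3 + 192 * hg
    linarith
  have h5 := congrArg (Int.cast : ℤ → ZMod 8) h4
  push_cast at h5
  rw [show (8 : ZMod 8) = 0 from rfl, zero_mul, sub_zero] at h5
  refine mod_eight (a : ZMod 8) ?_ (b₁ : ZMod 8) h5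
  rcases ha with rfl | rfl | rfl <;> simp

variable {G : Type*} [Group G] [Finite G] [IsSimpleGroup G]

set_option maxHeartbeats 1000000 in
set_option synthInstance.maxSize 4000 in
/-- No simple group of order `12096` has this spectrum. -/
theorem Good.false_of_simple (hG : Good G) (hns : ¬ IsMulCommutative G) : False := by
  haveI : Fact (Nat.Prime 7) := ⟨by norm_num⟩
  haveI : Fact (Nat.Prime 2) := ⟨Nat.prime_two⟩
  haveI := Fintype.ofFinite G
  obtain ⟨P⟩ := (inferInstance : Nonempty (Sylow 7 G))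
  obtain ⟨hP, hC, hN⟩ := hG.seven P
  have he : (Subgroup.centralizer ((P : Subgroup G) : Set G)).relIndex
      (Subgroup.normalizer ((P : Subgroup G) : Set G)) = 7 - 1 := by
    have h := relIndex_mul_centralizer (P : Subgroup G)
    rw [hC, hN] at h
    omega
  obtain ⟨x, S, v, hx, hz, hS, hone, hv1, hv, hdv, hval, hvan⟩ := exists_signs P hP he hC
  obtain ⟨Sx, hCx⟩ := setup_bot hx hz hC
  have hx1 : x ≠ 1 := fun h => by rw [h, orderOf_one] at hx; norm_num at hx
  -- `t` inverts `x` and commutes with `u` of order three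
  obtain ⟨t, u, ht2, htx, hu, hut⟩ : ∃ t u : G, t * t = 1 ∧ t * x * t⁻¹ = x⁻¹ ∧ orderOf u = 3 ∧
      Commute u t := by
    obtain ⟨-, -, hfus, -⟩ := CfsgLib.Blocks.OrderP.exists_local_data hx
      (hz ▸ P.not_dvd_index) (e := 6) (by rw [hz]; exact he)
    obtain ⟨g, hg⟩ := isConj_iff.mp ((hfus 1 3 one_ne_zero seven_facts.1).mpr
      (by rw [div_one]; exact seven_facts.2.1))
    replace hg : g * x * g⁻¹ = pw 7 x 3 := by
      rw [show CfsgLib.Blocks.OrderP.upow x (1 : ZMod 7) = pw 7 x 1 from rfl, pw_one] at hg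
      exact hg
    have hm : g ∈ nset 7 x := mem_nset.mpr ⟨3, hg⟩
    have hiter : ∀ n : ℕ, g ^ n * x * (g ^ n)⁻¹ = pw 7 x (3 ^ n) := by
      intro n
      induction n with
      | zero => simp [pw_one]
      | succ n ih =>
        obtain ⟨hm', he'⟩ := hexp_eq (g := g) (h := 3) hx hg
        rw [pow_succ', show g * g ^ n * x * (g * g ^ n)⁻¹ = g * (g ^ n * x * (g ^ n)⁻¹) * g⁻¹ by group,
          ih, conj_pw hx hm, he', ← pow_succ']
    have h42 : g ^ 42 = 1 := by
      have hgN : g ∈ Subgroup.normalizer ((P : Subgroup G) : Set G) :=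
        hz ▸ (mem_nset_iff_mem_normalizer hx).mp hm
      exact orderOf_dvd_iff_pow_eq_one.mp (hN ▸ Subgroup.orderOf_dvd_natCard _ hgN)
    refine ⟨g ^ 21, g ^ 14, by rw [← pow_add]; exact h42, ?_, ?_, Commute.pow_pow_self g 14 21⟩
    · rw [hiter 21, seven_facts.2.2.1]
      show x ^ 6 = x⁻¹
      rw [eq_inv_iff_mul_eq_one, ← pow_succ, show 6 + 1 = orderOf x by omega, pow_orderOf_eq_one]
    · refine orderOf_eq_prime (by rw [← pow_mul]; exact h42) fun h => ?_
      have h' := hiter 14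
      rw [h, seven_facts.2.2.2.1, one_mul, inv_one, mul_one] at h'
      exact absurd (pw_injective hx ((pw_one (p := 7) (x := x)).trans h')) seven_facts.2.2.2.2
  have ht1 : t ≠ 1 := fun h => by
    rw [h, one_mul, inv_one, mul_one, eq_inv_iff_mul_eq_one, ← pow_two] at htx
    have := orderOf_dvd_of_pow_eq_one htx
    rw [hx] at this
    norm_num at this
  have h3t : 3 ∣ Nat.card (Subgroup.centralizer ({t} : Set G)) :=
    hu ▸ Subgroup.orderOf_dvd_natCard _ (Subgroup.mem_centralizer_singleton_iff.mpr hut.eq)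
  have hlin := linear_trivial_of_simple hns
  have hcint : ∀ (z : G), z * z = 1 → ∀ χ : IrrCharacter G, ∃ c : ℤ, (χ : G → ℂ) z = (c : ℂ) ∧
      ∃ b : ℕ, c = (charDegree (χ : G → ℂ) : ℤ) - 4 * b ∧ 2 * b ≤ charDegree (χ : G → ℂ) := by
    intro z hz χ
    obtain ⟨a, b, h1, h2, hb⟩ := exists_even_neg hlin hz (isCharacter_coe χ)
    have hab : charDegree (χ : G → ℂ) = a + b :=
      charDegree_eq_of_map_one (by rw [h1]; push_cast; ring)
    obtain ⟨j, rfl⟩ := hb
    refine ⟨(a : ℤ) - ((j + j : ℕ) : ℤ), by rw [h2]; push_cast; ring, j, ?_, by omega⟩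
    push_cast
    omega
  choose ct hct bt hbt hbtle using hcint t ht2
  have hvx : ∀ χ ∈ S, (χ : G → ℂ) x = (v χ : ℂ) := fun χ hχ => by
    have := hval χ hχ 1 one_ne_zero; rwa [pw_one] at this
  let tr : IrrCharacter G → ℤ × ℕ × ℤ := fun χ => (v χ, charDegree (χ : G → ℂ), ct χ)
  have hopt : ∀ χ ∈ S.erase (oneChar G), tr χ ∈ optsBig := by
    intro χ hχ
    have hχS := Finset.mem_of_mem_erase hχ
    have hne := Finset.ne_of_mem_erase hχ
    obtain ⟨m₁, m₂, hm, hcm⟩ := mult_inverting hx (by norm_num) ht2 htx (isCharacter_coe χ)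
      (isClassFunction_coe χ) (v χ) (fun i hi => hval χ hχS i hi) _ (coe_charDegree χ).symm
      (ct χ) (hct χ)
    have hcb := hbt χ
    have hble := hbtle χ
    have h2le : 2 ≤ charDegree (χ : G → ℂ) := by
      have := charDegree_pos χ
      by_contra h
      exact hne (linear_eq_one hns χ (by omega))
    have hlt : charDegree (χ : G → ℂ) < 110 := by
      have h := charDegree_sq_le χ
      rw [hG.card] at h
      nlinarith
    have hdm := hdv χ hχS
    have key : ∀ d ∈ Finset.range 110, d ∣ 12096 → 2 ≤ d → d % 7 = 1 ∨ d % 7 = 6 →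
        d = 6 ∨ d = 8 ∨ d = 27 ∨ d = 36 ∨ d = 48 ∨ d = 64 := by decide +kernel
    have hd := key _ (Finset.mem_range.mpr hlt) (hG.card ▸ charDegree_dvd_card χ) h2le (by
      rcases hv χ hχS with e | e <;> rw [e] at hdm <;> push_cast at hdm <;> omega)
    push_cast at hm hdm
    rcases hd with e | e | e | e | e | e <;> rcases hv χ hχS with e' | e' <;>
      rw [e'] at hm hdm <;> rw [e] at hm hdm hcb hble <;>
      first
      | (exfalso; omega)
      | (simp only [tr, optsBig, e, e', List.mem_cons, List.not_mem_nil, Prod.mk.injEq, true_and,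
          false_and, and_true, or_false, false_or, Nat.reduceEqDiff, reduceCtorEq]
         norm_num
         omega)
  have hbad := noMultiset_sound goodBig wtBig optsBig 6 _ ((S.erase (oneChar G)).toList.map tr)
    noMultiset_big
    (by rw [List.length_map, Finset.length_toList, Finset.card_erase_of_mem hone, hS])
    (fun o ho => by
      obtain ⟨χ, hχ, rfl⟩ := List.mem_map.mp ho
      exact hopt χ (Finset.mem_toList.mp hχ))
  rw [List.map_map, Finset.sum_map_toList] at hbad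
  have hc1 : ct (oneChar G) = 1 := by
    have := hct (oneChar G); rw [oneChar_apply] at this; exact_mod_cast this.symm
  have hone' : charDegree (oneChar G : G → ℂ) = 1 := charDegree_linChar 1
  have hw1 : ((1, 1, 1728, 0, 0, 0, 0) : ℤ × ℤ × ℤ × ℤ × ℤ × ℤ × ℤ) = wtBig (tr (oneChar G)) := by
    simp only [tr, hv1, hc1, hone']; decide
  simp only [Function.comp_def] at hbad
  rw [hw1, Finset.add_sum_erase S (fun χ => wtBig (tr χ)) hone] at hbad
  -- the three relations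
  have horth : ∀ (z : G), z * z = 1 → ∀ c : IrrCharacter G → ℤ,
      (∀ χ : IrrCharacter G, (χ : G → ℂ) z = (c χ : ℂ)) → ∑ χ ∈ S, v χ * c χ = 0 := by
    intro z hz2 c hc
    have h := sum_irr_mul_conj z x
    have hnc : ¬ IsConj z x := fun hc => by
      obtain ⟨g, hg⟩ := isConj_iff.mp hc
      have hxx : x * x = 1 := by
        rw [← hg]
        calc g * z * g⁻¹ * (g * z * g⁻¹) = g * (z * z) * g⁻¹ := by group
          _ = 1 := by rw [hz2]; group
      have : orderOf x ∣ 2 := orderOf_dvd_of_pow_eq_one (by rw [pow_two, hxx])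
      rw [hx] at this; norm_num at this
    rw [if_neg hnc, ← Finset.sum_subset (Finset.subset_univ S)
      (fun χ _ hχ => by rw [hvan χ hχ, map_zero, mul_zero]),
      Finset.sum_congr rfl fun (χ : IrrCharacter G) hχ => show (χ : G → ℂ) z * (starRingEnd ℂ) ((χ : G → ℂ) x) =
        ((v χ * c χ : ℤ) : ℂ) by
        rw [hvx χ hχ, hc χ, map_intCast]; push_cast; ring] at h
    exact_mod_cast h
  have hA : ∑ χ ∈ S, v χ * (charDegree (χ : G → ℂ) : ℤ) = 0 :=
    horth 1 (one_mul 1) _ fun χ => by rw [← coe_charDegree]; push_cast; rfl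
  have hB : ∑ χ ∈ S, v χ * ct χ = 0 := horth t ht2 ct hct
  have hd0 : ∀ χ ∈ S, (charDegree (χ : G → ℂ) : ℤ) ∣ 1728 := by
    intro χ hχ
    by_cases h1 : χ = oneChar G
    · rw [h1, hone']; exact one_dvd _
    · have := hopt χ (Finset.mem_erase.mpr ⟨h1, hχ⟩)
      simp only [tr, optsBig, List.mem_cons, List.not_mem_nil, Prod.mk.injEq, or_false] at this
      rcases this with h | h | h | h | h | h | h | h | h | h | h | h | h | h <;> rw [h.2.1] <;> norm_num
  have hterm : ∀ (a b : G) (ca cb : IrrCharacter G → ℤ), (∀ χ : IrrCharacter G, (χ : G → ℂ) a = (ca χ : ℂ)) →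
      (∀ χ : IrrCharacter G, (χ : G → ℂ) b = (cb χ : ℂ)) →
      ((Finset.univ.filter fun q : G × G => q.1 * a * q.1⁻¹ * (q.2 * b * q.2⁻¹) = x).card : ℤ) =
        7 * ∑ χ ∈ S, v χ * (ca χ * cb χ) * (1728 / (charDegree (χ : G → ℂ) : ℤ)) := by
    intro a b ca cb ha hb
    apply Int.cast_injective (α := ℂ)
    rw [Int.cast_natCast, sum_pairs_two, ← Finset.sum_subset (Finset.subset_univ S)
      (fun χ _ hχ => by rw [map_inv_eq_conj (isCharacter_coe χ), hvan χ hχ, map_zero]; ring),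
      Finset.mul_sum, Int.cast_sum]
    refine Finset.sum_congr rfl fun χ hχ => ?_
    rw [map_inv_eq_conj (isCharacter_coe χ), hvx χ hχ, ha χ, hb χ, map_intCast, hG.card,
      ← coe_charDegree χ]
    obtain ⟨q, hq⟩ := hd0 χ hχ
    have hdne : (charDegree (χ : G → ℂ) : ℂ) ≠ 0 := Nat.cast_ne_zero.mpr (charDegree_pos χ).ne'
    rw [hq, Int.mul_ediv_cancel_left _ (by exact_mod_cast (charDegree_pos χ).ne')]
    have hqC : (1728 : ℂ) = (charDegree (χ : G → ℂ) : ℂ) * (q : ℂ) := by exact_mod_cast hq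
    push_cast
    field_simp
    linear_combination (7 * (v χ : ℂ) * (ca χ : ℂ) * (cb χ : ℂ)) * hqC
  have hCt : ∑ χ ∈ S, v χ * ct χ ^ 2 * (1728 / (charDegree (χ : G → ℂ) : ℤ)) =
      (Nat.card (Subgroup.centralizer ({t} : Set G)) : ℤ) ^ 2 := by
    have h := hterm t t ct ct hct hct
    rw [Sx.card_pairs (by norm_num) ht2 htx] at h
    push_cast at h
    simp only [pow_two] at h ⊢
    linarith
  have hbound : ∑ χ ∈ S, v χ * ct χ ^ 2 * (1728 / (charDegree (χ : G → ℂ) : ℤ)) < 120 * 120 := by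
    refine lt_of_le_of_lt (Finset.sum_le_card_nsmul S _ 1728 fun χ hχ => ?_) (by rw [hS]; norm_num)
    by_cases h1 : χ = oneChar G
    · subst h1; rw [hv1, hc1, hone']; norm_num
    · have := hopt χ (Finset.mem_erase.mpr ⟨h1, hχ⟩)
      simp only [tr, optsBig, List.mem_cons, List.not_mem_nil, Prod.mk.injEq, or_false] at this
      rcases this with h | h | h | h | h | h | h | h | h | h | h | h | h | h <;>
        rw [h.1, h.2.1, h.2.2] <;> norm_num
  -- the multiset
  have hw : ∀ f : IrrCharacter G → ℤ × ℕ × ℤ, (∑ χ ∈ S, wtBig (f χ)) =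
      (∑ χ ∈ S, (f χ).1 * (f χ).2.1, ∑ χ ∈ S, (f χ).1 * (f χ).2.2,
        ∑ χ ∈ S, (f χ).1 * (f χ).2.2 ^ 2 * (1728 / ((f χ).2.1 : ℤ)), ∑ χ ∈ S, indBig (f χ) (1, 8, 0),
        ∑ χ ∈ S, indBig (f χ) (1, 36, -4), ∑ χ ∈ S, indBig (f χ) (1, 36, 0),
        ∑ χ ∈ S, indBig (f χ) (-1, 27, -1)) := fun f => by
    simp only [Prod.ext_iff, Prod.fst_sum, Prod.snd_sum, wtBig, and_self]
  rw [hw tr] at hbad
  simp only [tr, hA, hB, hCt] at hbad
  have hk : (List.range 120).any (fun k =>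
      decide ((k : ℤ) * k = (Nat.card (Subgroup.centralizer ({t} : Set G)) : ℤ) ^ 2) &&
        decide (k % 3 = 0)) = true := by
    rw [List.any_eq_true]
    refine ⟨Nat.card (Subgroup.centralizer ({t} : Set G)), List.mem_range.mpr ?_, ?_⟩
    · have : (Nat.card (Subgroup.centralizer ({t} : Set G)) : ℤ) ^ 2 < 120 ^ 2 := by
        rw [← hCt]; linarith
      exact_mod_cast lt_of_pow_lt_pow_left₀ 2 (by norm_num) this
    · simp only [Bool.and_eq_true, decide_eq_true_eq]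
      exact ⟨by ring, Nat.mod_eq_zero_of_dvd h3t⟩
  simp only [goodBig, hk, Bool.and_true, and_self, decide_true, Bool.true_and, Bool.not_eq_false',
    decide_eq_true_eq] at hbad
  obtain ⟨n1, n2, n3, n4⟩ := hbad
  -- the six characters
  have hcount : ∀ o, o ≠ ((1 : ℤ), (1 : ℕ), (1 : ℤ)) → ∑ χ ∈ S, indBig (v χ, charDegree (χ : G → ℂ), ct χ) o =
      (((S.erase (oneChar G)).filter fun χ => tr χ = o).card : ℤ) := by
    intro o ho
    rw [← Finset.add_sum_erase S _ hone, hv1, hone', hc1, indBig, if_neg (fun h => ho h.symm),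
      zero_add]
    simp only [indBig, tr]
    rw [Finset.sum_boole]
  rw [hcount _ (by decide)] at n1 n2 n3 n4
  obtain ⟨χ₈, hχ₈⟩ := Finset.card_eq_one.mp (by exact_mod_cast n1 :
    ((S.erase (oneChar G)).filter fun χ => tr χ = (1, 8, 0)).card = 1)
  obtain ⟨χ₁, hχ₁⟩ := Finset.card_eq_one.mp (by exact_mod_cast n2 :
    ((S.erase (oneChar G)).filter fun χ => tr χ = (1, 36, -4)).card = 1)
  obtain ⟨χ₂, hχ₂⟩ := Finset.card_eq_one.mp (by exact_mod_cast n3 :
    ((S.erase (oneChar G)).filter fun χ => tr χ = (1, 36, 0)).card = 1)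
  obtain ⟨ψ₁, ψ₂, ψ₃, h12, h13, h23, hψ⟩ := Finset.card_eq_three.mp (by exact_mod_cast n4 :
    ((S.erase (oneChar G)).filter fun χ => tr χ = (-1, 27, -1)).card = 3)
  have hmemF : ∀ {χ : IrrCharacter G} {o : ℤ × ℕ × ℤ} {T : Finset (IrrCharacter G)},
      ((S.erase (oneChar G)).filter fun χ => tr χ = o) = T → χ ∈ T →
        χ ∈ S.erase (oneChar G) ∧ v χ = o.1 ∧ charDegree (χ : G → ℂ) = o.2.1 ∧ ct χ = o.2.2 := by
    intro χ o T hT hχ
    rw [← hT, Finset.mem_filter] at hχ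
    refine ⟨hχ.1, ?_⟩
    rw [← hχ.2]
    exact ⟨rfl, rfl, rfl⟩
  obtain ⟨h8m, h8v, h8d, h8c⟩ := hmemF hχ₈ (Finset.mem_singleton_self χ₈)
  obtain ⟨h1m, h1v, h1d, h1c⟩ := hmemF hχ₁ (Finset.mem_singleton_self χ₁)
  obtain ⟨h2m, h2v, h2d, h2c⟩ := hmemF hχ₂ (Finset.mem_singleton_self χ₂)
  obtain ⟨hp1m, hp1v, hp1d, hp1c⟩ := hmemF hψ (χ := ψ₁) (by simp)
  obtain ⟨hp2m, hp2v, hp2d, hp2c⟩ := hmemF hψ (χ := ψ₂) (by simp)
  obtain ⟨hp3m, hp3v, hp3d, hp3c⟩ := hmemF hψ (χ := ψ₃) (by simp)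
  dsimp only at h8v h8d h8c h1v h1d h1c h2v h2d h2c hp1v hp1d hp1c hp2v hp2d hp2c hp3v hp3d hp3c
  have hset : S.erase (oneChar G) = {χ₈, χ₁, χ₂, ψ₁, ψ₂, ψ₃} := by
    refine (Finset.eq_of_subset_of_card_le ?_ ?_).symm
    · simp only [Finset.insert_subset_iff, Finset.singleton_subset_iff]
      exact ⟨h8m, h1m, h2m, hp1m, hp2m, hp3m⟩
    · rw [Finset.card_erase_of_mem hone, hS]
      have hne : ∀ {a b : IrrCharacter G}, charDegree (a : G → ℂ) ≠ charDegree (b : G → ℂ) → a ≠ b :=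
        fun h e => h (by rw [e])
      have h12' : χ₁ ≠ χ₂ := fun e => by rw [e, h2c] at h1c; norm_num at h1c
      rw [Finset.card_insert_of_notMem, Finset.card_insert_of_notMem, Finset.card_insert_of_notMem,
        Finset.card_insert_of_notMem, Finset.card_insert_of_notMem, Finset.card_singleton]
      all_goals simp only [Finset.mem_insert, Finset.mem_singleton, not_or]
      all_goals first
        | exact h23
        | exact ⟨h12, h13⟩
        | exact ⟨hne (by omega), hne (by omega), hne (by omega)⟩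
        | exact ⟨h12', hne (by omega), hne (by omega), hne (by omega)⟩
        | exact ⟨hne (by omega), hne (by omega), hne (by omega), hne (by omega), hne (by omega)⟩
  have hsplit : ∀ f : IrrCharacter G → ℤ, ∑ χ ∈ S, f χ =
      f (oneChar G) + (f χ₈ + (f χ₁ + (f χ₂ + (f ψ₁ + (f ψ₂ + f ψ₃))))) := fun f => by
    rw [← Finset.add_sum_erase S f hone, hset]
    have hd : ∀ {a b : IrrCharacter G}, charDegree (a : G → ℂ) ≠ charDegree (b : G → ℂ) → a ≠ b :=
      fun h e => h (by rw [e])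
    have h12' : χ₁ ≠ χ₂ := fun e => by rw [e, h2c] at h1c; norm_num at h1c
    rw [Finset.sum_insert, Finset.sum_insert, Finset.sum_insert, Finset.sum_insert, Finset.sum_insert,
      Finset.sum_singleton]
    all_goals simp only [Finset.mem_insert, Finset.mem_singleton, not_or]
    all_goals first
      | exact h23
      | exact ⟨h12, h13⟩
      | exact ⟨hd (by omega), hd (by omega), hd (by omega)⟩
      | exact ⟨h12', hd (by omega), hd (by omega), hd (by omega)⟩
      | exact ⟨hd (by omega), hd (by omega), hd (by omega), hd (by omega), hd (by omega)⟩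
  have hC48 : Nat.card (Subgroup.centralizer ({t} : Set G)) = 48 := by
    have h := hCt
    rw [hsplit, hv1, hc1, hone', h8v, h8d, h8c, h1v, h1d, h1c, h2v, h2d, h2c, hp1v, hp1d, hp1c,
      hp2v, hp2d, hp2c, hp3v, hp3d, hp3c] at h
    generalize Nat.card (Subgroup.centralizer ({t} : Set G)) = n at h ⊢
    norm_num at h
    have h' : n ^ 2 = 2304 := by exact_mod_cast h.symm
    exact Nat.pow_left_injective (show (2 : ℕ) ≠ 0 by norm_num) (show n ^ 2 = 48 ^ 2 by rw [h'])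
  -- a `2`-central involution
  obtain ⟨T⟩ := (inferInstance : Nonempty (Sylow 2 G))
  have hT : Nat.card (T : Subgroup G) = 64 := by
    rw [Sylow.card_eq_multiplicity, hG.card, show 12096 = 2 ^ 6 * 189 by norm_num,
      Nat.factorization_mul (by norm_num) (by norm_num), Finsupp.add_apply,
      Nat.prime_two.factorization_pow, Finsupp.single_eq_same,
      Nat.factorization_eq_zero_of_not_dvd (by norm_num : ¬ 2 ∣ 189)]
    norm_num
  haveI : Nontrivial (T : Subgroup G) := Finite.one_lt_card_iff_nontrivial.mp (by rw [hT]; norm_num)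
  obtain ⟨s, hs2, hs1, hs64⟩ : ∃ s : G, s * s = 1 ∧ s ≠ 1 ∧
      64 ∣ Nat.card (Subgroup.centralizer ({s} : Set G)) := by
    haveI := T.isPGroup'.center_nontrivial
    obtain ⟨n, hn⟩ := IsPGroup.iff_card.mp (T.isPGroup'.to_subgroup (Subgroup.center (T : Subgroup G)))
    have hn0 : n ≠ 0 := fun e => by
      rw [e, pow_zero] at hn
      exact absurd (Finite.one_lt_card (α := Subgroup.center (T : Subgroup G))) (by rw [hn]; norm_num)
    obtain ⟨⟨⟨s, hsT⟩, hsc⟩, ho⟩ := exists_prime_orderOf_dvd_card'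
      (G := Subgroup.center (T : Subgroup G)) 2 (hn ▸ dvd_pow_self 2 hn0)
    rw [Subgroup.orderOf_mk, Subgroup.orderOf_mk] at ho
    refine ⟨s, by rw [← pow_two, ← ho, pow_orderOf_eq_one], fun h => by simp [h] at ho,
      hT ▸ Subgroup.card_dvd_of_le fun y hy => Subgroup.mem_centralizer_singleton_iff.mpr ?_⟩
    exact congrArg Subtype.val (Subgroup.mem_center_iff.mp hsc ⟨y, hy⟩)
  have hnoinv : ∀ g : G, g * s * g⁻¹ * x * (g * s * g⁻¹)⁻¹ ≠ x⁻¹ := by
    intro g hg
    set a := g * s * g⁻¹ with ha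
    have hat : a * t ∈ Subgroup.centralizer ({x} : Set G) := by
      rw [Subgroup.mem_centralizer_singleton_iff]
      refine mul_inv_eq_iff_eq_mul.mp ?_
      rw [show a * t * x * (a * t)⁻¹ = a * (t * x * t⁻¹) * a⁻¹ by group, htx,
        show a * x⁻¹ * a⁻¹ = (a * x * a⁻¹)⁻¹ by group, hg, inv_inv]
    have hle : Subgroup.zpowers x ≤ Subgroup.centralizer ({x} : Set G) :=
      Subgroup.zpowers_le.mpr (Subgroup.mem_centralizer_singleton_iff.mpr rfl)
    have heq := Subgroup.eq_of_le_of_card_ge hle (by rw [hCx, Nat.card_zpowers, hx])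
    obtain ⟨i, hi⟩ := Subgroup.mem_zpowers_iff.mp (heq ▸ hat)
    have hat' : a = x ^ (4 * i) * t * (x ^ (4 * i))⁻¹ := by
      have h1 : t * (x ^ (4 * i))⁻¹ = x ^ (4 * i) * t := by
        rw [← mul_inv_eq_iff_eq_mul, show t * (x ^ (4 * i))⁻¹ * t⁻¹ = ((t * x * t⁻¹) ^ (4 * i))⁻¹ by
          rw [conj_zpow]; group, htx, inv_zpow', zpow_neg, inv_inv]
      rw [mul_assoc, h1, ← mul_assoc, ← zpow_add,
        show 4 * i + 4 * i = i + 7 * i by ring, zpow_add,
        show x ^ (7 * i) = 1 by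
          rw [zpow_mul, show (7 : ℤ) = ((7 : ℕ) : ℤ) from rfl, zpow_natCast, ← hx, pow_orderOf_eq_one,
            one_zpow], mul_one, hi, mul_assoc, ht2, mul_one]
    have hconj : ∃ c : G, c * s * c⁻¹ = t := by
      refine ⟨(x ^ (4 * i))⁻¹ * g, ?_⟩
      rw [show (x ^ (4 * i))⁻¹ * g * s * ((x ^ (4 * i))⁻¹ * g)⁻¹ =
        (x ^ (4 * i))⁻¹ * (g * s * g⁻¹) * x ^ (4 * i) by group, ← ha, hat']
      group
    obtain ⟨c, hc⟩ := hconj
    have hmap : (Subgroup.centralizer ({s} : Set G)).map (MulAut.conj c).toMonoidHom ≤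
        Subgroup.centralizer ({t} : Set G) := by
      rintro _ ⟨y, hy, rfl⟩
      rw [SetLike.mem_coe, Subgroup.mem_centralizer_singleton_iff] at hy
      rw [Subgroup.mem_centralizer_singleton_iff, ← hc]
      show c * y * c⁻¹ * (c * s * c⁻¹) = c * s * c⁻¹ * (c * y * c⁻¹)
      rw [show c * y * c⁻¹ * (c * s * c⁻¹) = c * (y * s) * c⁻¹ by group, hy]
      group
    have h1 := Subgroup.card_dvd_of_le hmap
    rw [Subgroup.card_map_of_injective (MulAut.conj c).injective, hC48] at h1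
    have := hs64.trans h1
    norm_num at this
  choose cs hcs bs hbs hbsle using hcint s hs2
  have hO := horth s hs2 cs hcs
  have hss := hterm s s cs cs hcs hcs
  have hst := hterm s t cs ct hcs hct
  rw [pairs_eq_empty hs2 hs2 hnoinv] at hss
  rw [pairs_eq_empty hs2 ht2 hnoinv] at hst
  have hcs1 : cs (oneChar G) = 1 := by
    have := hcs (oneChar G); rw [oneChar_apply] at this; exact_mod_cast this.symm
  rw [Finset.card_empty, Nat.cast_zero, hsplit, hv1, hone', hcs1, h8v, h8d, h1v, h1d, h2v, h2d,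
    hp1v, hp1d, hp2v, hp2d, hp3v, hp3d] at hss
  rw [Finset.card_empty, Nat.cast_zero, hsplit, hv1, hone', hcs1, hc1, h8v, h8d, h8c, h1v, h1d, h1c,
    h2v, h2d, h2c, hp1v, hp1d, hp1c, hp2v, hp2d, hp2c, hp3v, hp3d, hp3c] at hst
  rw [hsplit, hv1, hcs1, h8v, h1v, h2v, hp1v, hp2v, hp3v] at hO
  norm_num at hss hst hO
  have e8 := hbs χ₈
  have e1 := hbs χ₁
  have e2 := hbs χ₂
  have f1 := hbs ψ₁
  have f2 := hbs ψ₂
  have f3 := hbs ψ₃
  rw [h8d] at e8
  rw [h1d] at e1
  rw [h2d] at e2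
  rw [hp1d] at f1
  rw [hp2d] at f2
  rw [hp3d] at f3
  push_cast at e8 e1 e2 f1 f2 f3
  have hne8 : χ₈ ≠ oneChar G := Finset.ne_of_mem_erase h8m
  have hb8 : bs χ₈ = 1 ∨ bs χ₈ = 2 ∨ bs χ₈ = 3 := by
    have hle := hbsle χ₈
    rw [h8d] at hle
    have hnorm : cs χ₈ ≠ 8 ∧ cs χ₈ ≠ -8 := by
      have hd1 : (χ₈ : G → ℂ) 1 = 8 := by rw [← coe_charDegree, h8d]; norm_num
      constructor <;> intro e <;> apply hs1 <;> apply eq_one_of_norm_eq_degree hns hne8 <;>
        rw [hcs χ₈, e, hd1] <;> norm_num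
    omega
  refine no_values (2 - bs χ₈) (9 - bs χ₁) (9 - bs χ₂) (6 - bs ψ₁) (6 - bs ψ₂) (6 - bs ψ₃) ?_ ?_ ?_ ?_
  · omega
  · linarith
  · linarith
  · rw [show 4 * (2 - (bs χ₈ : ℤ)) = cs χ₈ by linarith, show 4 * (9 - (bs χ₁ : ℤ)) = cs χ₁ by linarith,
      show 4 * (9 - (bs χ₂ : ℤ)) = cs χ₂ by linarith,
      show 4 * (6 - (bs ψ₁ : ℤ)) + 3 = cs ψ₁ by linarith,
      show 4 * (6 - (bs ψ₂ : ℤ)) + 3 = cs ψ₂ by linarith,
      show 4 * (6 - (bs ψ₃ : ℤ)) + 3 = cs ψ₃ by linarith]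
    linarith

end CfsgLib.GTwoTwoUniq80
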