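import Cfsg.Agent.GTwoTwoUniq80.Block
import Cfsg.Agent.Chars.Brauer.Defect

/-!
Elements of order three in a simple group of order `6048`: the character of degree six separates the
central elements of a Sylow subgroup from the others, whose centralisers have order nine.
-/

set_option autoImplicit false

namespace CfsgLib.GTwoTwoUniq80

open Cfsg CfsgLib.Chars CfsgLib.PrimeGram
open scoped ComplexConjugate Classical

variable {N : Type*} [Group N]

/-- What the local analysis uses: `Q` marks the elements central in a Sylow `3`-subgroup. -/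
structure ThreeData (N : Type*) [Group N] (Q : N → Prop) : Prop where
  conjInv : ∀ g u : N, Q (g * u * g⁻¹) ↔ Q u
  exists_centre : ∀ P : Sylow 3 N, ∃ z ∈ (P : Subgroup N), z ≠ 1 ∧
    (∀ v ∈ (P : Subgroup N), v * z = z * v) ∧
    (∀ u ∈ (P : Subgroup N), u ≠ 1 → (Q u ↔ u ∈ Subgroup.zpowers z))
  noncomm : ∀ P : Sylow 3 N, ¬ ∀ a ∈ (P : Subgroup N), ∀ b ∈ (P : Subgroup N), a * b = b * a
  card_sylow : ∀ P : Sylow 3 N, Nat.card (P : Subgroup N) = 27
  cube : ∀ P : Sylow 3 N, ∀ u ∈ (P : Subgroup N), u ^ 3 = 1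
  centralizer_other : ∀ u : N, orderOf u = 3 → ¬ Q u →
    Nat.card (Subgroup.centralizer ({u} : Set N)) = 9
  centralizer_centre : ∀ z : N, orderOf z = 3 → Q z →
    Nat.card (Subgroup.centralizer ({z} : Set N)) ∣ 108

variable [Finite N] [IsSimpleGroup N]

theorem Small.card_sylow_three (S : Small N) [Fact (Nat.Prime 3)] (P : Sylow 3 N) :
    Nat.card (P : Subgroup N) = 27 := by
  rw [Sylow.card_eq_multiplicity, S.card, show 6048 = 3 ^ 3 * 224 by norm_num,
    Nat.factorization_mul (by norm_num) (by norm_num), Finsupp.add_apply,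
    Nat.Prime.factorization_pow (by norm_num : Nat.Prime 3), Finsupp.single_eq_same,
    Nat.factorization_eq_zero_of_not_dvd (by norm_num : ¬ 3 ∣ 224)]
  norm_num

theorem Small.cube_eq_one (S : Small N) [Fact (Nat.Prime 3)] (P : Sylow 3 N) {u : N}
    (hu : u ∈ (P : Subgroup N)) : u ^ 3 = 1 := by
  have hd : orderOf u ∣ 3 ^ 3 := by
    have := Subgroup.orderOf_dvd_natCard (P : Subgroup N) hu
    rwa [S.card_sylow_three P] at this
  obtain ⟨i, hi, ho⟩ := (Nat.dvd_prime_pow Nat.prime_three).mp hd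
  interval_cases i
  · have h1 : u = 1 := orderOf_eq_one_iff.mp (by rw [ho, pow_zero])
    rw [h1]; exact one_pow 3
  · rw [show (3 : ℕ) = orderOf u by rw [ho, pow_one]]; exact pow_orderOf_eq_one u
  · exact absurd (by rw [ho]; norm_num) (S.noNine u)
  · refine absurd ?_ (S.noNine (u ^ 3))
    rw [orderOf_pow, ho]; norm_num

theorem regular_of_cube {u : N} (hu : u ^ 3 = 1) : ¬ 7 ∣ orderOf u := fun h => by
  have := Nat.le_of_dvd (by norm_num) (h.trans (orderOf_dvd_of_pow_eq_one hu))
  omega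

omit [Finite N] [IsSimpleGroup N] in
theorem omega_two : (ZMod.stdAddChar (2 : ZMod 3) : ℂ) = ZMod.stdAddChar (1 : ZMod 3) ^ 2 := by
  rw [← AddChar.map_nsmul_eq_pow]; rfl

omit [Finite N] [IsSimpleGroup N] in
theorem omega_sum : (1 : ℂ) + ZMod.stdAddChar (1 : ZMod 3) + ZMod.stdAddChar (1 : ZMod 3) ^ 2 = 0 := by
  have h3 : ZMod.stdAddChar (1 : ZMod 3) ^ 3 = (1 : ℂ) := by
    rw [← AddChar.map_nsmul_eq_pow, show (3 : ℕ) • (1 : ZMod 3) = 0 from by decide,
      AddChar.map_zero_eq_one]
  have h1 : ZMod.stdAddChar (1 : ZMod 3) ≠ (1 : ℂ) := fun h =>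
    absurd (ZMod.injective_stdAddChar (N := 3) (h.trans (AddChar.map_zero_eq_one _).symm))
      (by decide)
  exact (mul_eq_zero.mp (by linear_combination h3 :
    (ZMod.stdAddChar (1 : ZMod 3) - 1) * ((1 : ℂ) + ZMod.stdAddChar (1 : ZMod 3) +
      ZMod.stdAddChar (1 : ZMod 3) ^ 2) = 0)).resolve_left (sub_ne_zero.mpr h1)

/-- No exceptional character of degree three. -/
theorem false_of_degree_three (S : Small N) {χ : IrrCharacter N} (hne : χ ≠ oneChar N)
    (hd : charDegree (χ : N → ℂ) = 3) : False := by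
  haveI : Fact (Nat.Prime 3) := ⟨Nat.prime_three⟩
  haveI := Fintype.ofFinite N
  have hG := S.noncomm
  obtain ⟨P⟩ := (inferInstance : Nonempty (Sylow 3 N))
  have hd1 : (χ : N → ℂ) 1 = 3 := by rw [← coe_charDegree, hd]; norm_num
  have hval : ∀ k : (P : Subgroup N), k ≠ 1 → (χ : N → ℂ) k = 0 := by
    intro k hk
    obtain ⟨a, b, c, h1, hu, -, hmod⟩ := exists_mult_three (linear_trivial_of_simple hG)
      (S.cube_eq_one P k.2) (isCharacter_coe χ)
    have habc : a + b + c = 3 := by
      rw [hd1] at h1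
      exact_mod_cast h1.symm
    have hk1 : (k : N) ≠ 1 := fun h => hk (Subtype.ext h)
    have hω : ∀ i : ZMod 3, ‖ZMod.stdAddChar i‖ = 1 := fun i => AddChar.norm_apply _ _
    have hb3 : b ≤ 3 := by omega
    have hc3 : c ≤ 3 := by omega
    rcases (show (a = 3 ∧ b = 0 ∧ c = 0) ∨ (b = 3 ∧ a = 0 ∧ c = 0) ∨ (c = 3 ∧ a = 0 ∧ b = 0) ∨
        (a = 1 ∧ b = 1 ∧ c = 1) by interval_cases b <;> interval_cases c <;> omega) with
      ⟨rfl, rfl, rfl⟩ | ⟨rfl, rfl, rfl⟩ | ⟨rfl, rfl, rfl⟩ | ⟨rfl, rfl, rfl⟩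
    · exact absurd (eq_one_of_norm_eq_degree hG hne (by rw [hu, hd1]; simp)) hk1
    · exact absurd (eq_one_of_norm_eq_degree hG hne (by rw [hu, hd1]; simp [hω])) hk1
    · exact absurd (eq_one_of_norm_eq_degree hG hne (by rw [hu, hd1]; simp [hω])) hk1
    · rw [hu, omega_two]
      push_cast; linear_combination omega_sum
  obtain ⟨n, hn⟩ := exists_nat_sum_hom (isCharacter_coe χ) (P : Subgroup N).subtype 1
  simp only [MonoidHom.one_apply, Units.val_one, map_one, mul_one, Subgroup.coe_subtype] at hn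
  rw [Finset.sum_eq_single (1 : (P : Subgroup N)) (fun k _ hk => hval k hk) (by simp),
    S.card_sylow_three P, Subgroup.coe_one, hd1] at hn
  have : (27 * n : ℕ) = 3 := by exact_mod_cast hn.symm
  omega

/-- The degrees `8, 27, 18` do not occur: no involution inverts an element of order seven. -/
theorem false_of_eight (S : Small N) {x : N} {α β θ : IrrCharacter N}
    (T : Trio N x α β θ 1 (-1) (-1)) (ha : charDegree (α : N → ℂ) = 8)
    (hb : charDegree (β : N → ℂ) = 27) (ht : charDegree (θ : N → ℂ) = 18) : False := by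
  haveI := Fintype.ofFinite N
  haveI : Fact (Nat.Prime 7) := ⟨by norm_num⟩
  haveI : Fact (Nat.Prime 2) := ⟨Nat.prime_two⟩
  have hG := S.noncomm
  obtain ⟨s, hs⟩ := exists_prime_orderOf_dvd_card' (G := N) 2 (by rw [S.card]; norm_num)
  have hs2 : s * s = 1 := by rw [← pow_two, ← hs, pow_orderOf_eq_one]
  have hs1 : s ≠ 1 := fun h => by rw [h, orderOf_one] at hs; norm_num at hs
  have hreg : ¬ 7 ∣ orderOf s := by rw [hs]; norm_num
  have hno : ∀ g : N, g * s * g⁻¹ * x * (g * s * g⁻¹)⁻¹ ≠ x⁻¹ := by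
    intro g h
    obtain ⟨P, hP⟩ := T.sylow
    have hm : g * s * g⁻¹ ∈ Subgroup.normalizer ((P : Subgroup N) : Set N) := by
      rw [← hP]
      refine (mem_nset_iff_mem_normalizer T.order).mp (mem_nset.mpr ⟨-1, ?_⟩)
      rw [h]
      refine (eq_inv_of_mul_eq_one_left ?_).symm
      nth_rw 2 [← pw_one (p := 7) (x := x)]
      rw [← pw_add T.order, neg_add_cancel, pw_zero]
    have h2 := Subgroup.orderOf_dvd_natCard _ hm
    rw [(S.seven P).2, show g * s * g⁻¹ = MulAut.conj g s from rfl, MulEquiv.orderOf_eq, hs] at h2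
    norm_num at h2
  have h0 := T.pairs s s hreg hreg
  rw [Nat.card_eq_fintype_card, Fintype.card_subtype, pairs_eq_empty hs2 hs2 hno, Finset.card_empty,
    ha, hb, ht] at h0
  obtain ⟨a₁, b₁, e1, e2, -⟩ := exists_even_neg (linear_trivial_of_simple hG) hs2 (isCharacter_coe α)
  obtain ⟨a₂, b₂, -, f2, -⟩ := exists_even_neg (linear_trivial_of_simple hG) hs2 (isCharacter_coe β)
  have hr := T.rel s hreg
  set A : ℤ := (a₁ : ℤ) - b₁ with hA
  set B : ℤ := (a₂ : ℤ) - b₂ with hB
  have eA : (α : N → ℂ) s = (A : ℂ) := by rw [e2, hA]; push_cast; ring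
  have eB : (β : N → ℂ) s = (B : ℂ) := by rw [f2, hB]; push_cast; ring
  have eT : (θ : N → ℂ) s = ((B - 1 - A : ℤ) : ℂ) := by
    push_cast at hr ⊢
    rw [eA, eB] at hr
    linear_combination -hr
  rw [eA, eB, eT] at h0
  have h : 216 + 27 * A ^ 2 - 8 * B ^ 2 + 12 * (B - 1 - A) ^ 2 = 0 := by
    apply Int.cast_injective (α := ℂ)
    push_cast at h0 ⊢
    linear_combination (-(216 / 6048 : ℂ)) * h0
  have hA8 : A = 8 := by
    nlinarith [sq_nonneg (B - 1 - A - 2 * A - 2), sq_nonneg (A - 8)]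
  have : (α : N → ℂ) s = (α : N → ℂ) 1 := by rw [eA, hA8, ← coe_charDegree, ha]; norm_num
  exact hs1 (eq_one_of_value_eq_degree T.aNe this)

/-- The values of the character of degree six at elements of order three. -/
theorem six_values (S : Small N) {x : N} {α β θ : IrrCharacter N}
    (T : Trio N x α β θ (-1) (-1) (-1)) (ha : charDegree (α : N → ℂ) = 6)
    (hb : charDegree (β : N → ℂ) = 27) (ht : charDegree (θ : N → ℂ) = 32) {u : N} (hu : orderOf u = 3) :
    ((α : N → ℂ) u = 0 ∨ (α : N → ℂ) u = -3) ∧ (β : N → ℂ) u = 0 ∧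
      (θ : N → ℂ) u = (α : N → ℂ) u - 1 := by
  haveI := Fintype.ofFinite N
  have hG := S.noncomm
  have hu3 : u ^ 3 = 1 := by rw [← hu, pow_orderOf_eq_one]
  have hu1 : u ≠ 1 := fun h => by rw [h, orderOf_one] at hu; norm_num at hu
  have hreg := regular_of_cube hu3
  have hβ : (β : N → ℂ) u = 0 :=
    CfsgLib.Chars.Brauer.eq_zero_of_defect_zero Nat.prime_three β (a := 3) (m := 224)
      (by rw [S.card]; norm_num) (by norm_num) (by rw [hb]; norm_num) (by rw [hu])
  have hθ : (θ : N → ℂ) u = (α : N → ℂ) u - 1 := by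
    have h := T.rel u hreg
    rw [hβ] at h
    push_cast at h
    linear_combination -h
  refine ⟨?_, hβ, hθ⟩
  obtain ⟨a, b, c, h1, hval, -, hmod⟩ := exists_mult_three (linear_trivial_of_simple hG)
    hu3 (isCharacter_coe α)
  have habc : a + b + c = 6 := by
    rw [← coe_charDegree, ha] at h1
    exact_mod_cast h1.symm
  set ω : ℂ := ZMod.stdAddChar (1 : ZMod 3) with hω
  have hω2 : ZMod.stdAddChar (2 : ZMod 3) = ω ^ 2 := omega_two
  have hs : 1 + ω + ω ^ 2 = 0 := omega_sum
  rw [hω2] at hval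
  have hsre := congrArg Complex.re hs
  have hsim := congrArg Complex.im hs
  simp only [pow_two, Complex.add_re, Complex.add_im, Complex.mul_re, Complex.mul_im,
    Complex.one_re, Complex.one_im, Complex.zero_re, Complex.zero_im] at hsre hsim
  have him : ω.im ≠ 0 := fun h => by
    rw [h] at hsre; nlinarith [sq_nonneg (ω.re + 1 / 2)]
  have hre : ω.re = -1 / 2 := by
    have : ω.im * (2 * ω.re + 1) = 0 := by linarith
    linarith [(mul_eq_zero.mp this).resolve_left him]
  obtain ⟨m, hm, -⟩ : ∃ m : ℕ, ((Nat.card {q : N × N // q.1 * u * q.1⁻¹ * (q.2 * u * q.2⁻¹) = x}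
      : ℕ) : ℂ) = (m : ℂ) ∧ True := ⟨_, rfl, trivial⟩
  have hp := T.pairs u u hreg hreg
  rw [hm, ha, hb, ht, hβ, hθ] at hp
  have hp' : (m : ℂ) / 63 = 99 - 13 * (α : N → ℂ) u ^ 2 - 6 * (α : N → ℂ) u := by
    push_cast at hp
    linear_combination (1 / 63 : ℂ) * hp
  have hpim := congrArg Complex.im hp'
  have hpre := congrArg Complex.re hp'
  have hvim : ((α : N → ℂ) u).im = ((b : ℝ) - c) * ω.im := by
    rw [hval]; simp [pow_two, hre]; ring
  have hvre : ((α : N → ℂ) u).re = (a : ℝ) - ((b : ℝ) + c) / 2 := by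
    have h2 : ω.re * ω.re - ω.im * ω.im = -1 / 2 := by rw [hre] at hsre ⊢; linarith
    rw [hval]; simp [pow_two, hre]
    rw [hre] at h2
    linear_combination (c : ℝ) * h2
  simp [pow_two, Complex.div_im, Complex.div_re, Complex.normSq] at hpim hpre
  have hbc : b = c := by
    by_contra hne
    have hne' : ((α : N → ℂ) u).im ≠ 0 := by
      rw [hvim]
      exact mul_ne_zero (sub_ne_zero.mpr (by exact_mod_cast hne)) him
    have : -26 * ((α : N → ℂ) u).re - 6 = 0 :=
      (mul_eq_zero.mp (show ((α : N → ℂ) u).im * (-26 * ((α : N → ℂ) u).re - 6) = 0 by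
        linarith)).resolve_left hne'
    rw [hvre] at this
    have h' : (-26 : ℤ) * a + 13 * b + 13 * c - 6 = 0 := by
      apply Int.cast_injective (α := ℝ); push_cast; linarith
    omega
  have hv : (α : N → ℂ) u = ((a : ℂ) - b) := by
    rw [hval, ← hbc]; linear_combination (b : ℂ) * hs
  have hb3 : b ≤ 3 := by omega
  interval_cases b
  · exact absurd (eq_one_of_value_eq_degree T.aNe (by
      rw [hv, ← coe_charDegree, ha, show a = 6 by omega]; norm_num)) hu1
  · exfalso
    rw [hv, show a = 4 by omega] at hpre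
    norm_num at hpre
    have : (0 : ℝ) ≤ m := Nat.cast_nonneg m
    linarith
  · left; rw [hv, show a = 2 by omega]; norm_num
  · right; rw [hv, show a = 0 by omega]; norm_num

theorem exists_threeData (S : Small N) : ∃ Q, ThreeData N Q := by
  haveI : Fact (Nat.Prime 3) := ⟨Nat.prime_three⟩
  haveI : Fact (Nat.Prime 7) := ⟨by norm_num⟩
  haveI := Fintype.ofFinite N
  obtain ⟨x, α, β, θ, va, vb, ε, T, hcase⟩ := exists_trio S
  rcases hcase with h3 | ⟨rfl, rfl, rfl, ha, hb, ht⟩ | ⟨rfl, rfl, rfl, ha, hb, ht⟩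
  · exact (false_of_degree_three S T.tNe h3).elim
  · exact (false_of_eight S T ha hb ht).elim
  have hα1 : (α : N → ℂ) 1 = 6 := by rw [← coe_charDegree, ha]; norm_num
  have hord : ∀ P : Sylow 3 N, ∀ u ∈ (P : Subgroup N), u ≠ 1 → orderOf u = 3 := fun P u hu h1 =>
    orderOf_eq_prime (S.cube_eq_one P hu) h1
  let Q : N → Prop := fun u => (α : N → ℂ) u = -3
  have hconj : ∀ g u : N, Q (g * u * g⁻¹) ↔ Q u := fun g u => by
    show (α : N → ℂ) (g * u * g⁻¹) = -3 ↔ _
    rw [isClassFunction_coe α u g]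
  -- two central elements in each Sylow subgroup
  have hcount : ∀ P : Sylow 3 N,
      (Finset.univ.filter fun u : (P : Subgroup N) => u ≠ 1 ∧ Q u).card = 2 := by
    intro P
    set s := Finset.univ.filter fun u : (P : Subgroup N) => u ≠ 1 ∧ Q u with hs
    obtain ⟨n, hn⟩ := exists_nat_sum_hom (isCharacter_coe α) (P : Subgroup N).subtype 1
    simp only [MonoidHom.one_apply, Units.val_one, map_one, mul_one, Subgroup.coe_subtype] at hn
    have hv : ∀ u : (P : Subgroup N), (α : N → ℂ) u =
        (if u = 1 then (6 : ℂ) else 0) + (if u ≠ 1 ∧ Q u then (-3 : ℂ) else 0) := by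
      intro u
      by_cases h1 : u = 1
      · subst h1; simp [hα1]
      · have := (six_values S T ha hb ht (hord P u u.2 fun h => h1 (Subtype.ext h))).1
        rcases this with h | h
        · have : ¬ Q u := fun hq => by simp only [Q, h] at hq; norm_num at hq
          simp [h1, this, h]
        · simp [h1, Q, h]
    rw [Finset.sum_congr rfl fun u _ => hv u, Finset.sum_add_distrib, Finset.sum_ite_eq' Finset.univ,
      if_pos (Finset.mem_univ _), ← Finset.sum_filter, ← hs, Finset.sum_const, nsmul_eq_mul,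
      S.card_sylow_three P] at hn
    have hle : s.card ≤ 27 := by
      rw [← S.card_sylow_three P, Nat.card_eq_fintype_card]; exact Finset.card_le_univ s
    have hn' : (6 : ℤ) - 3 * s.card = 27 * n := by
      apply Int.cast_injective (α := ℂ); push_cast at hn ⊢; linear_combination hn
    omega
  have hinv : ∀ P : Sylow 3 N, ∀ u : (P : Subgroup N), u ≠ 1 → Q u → u⁻¹ ≠ 1 ∧ Q (u⁻¹ : N) := by
    intro P u h1 hq
    refine ⟨fun h => h1 (inv_eq_one.mp h), ?_⟩
    show (α : N → ℂ) (u : N)⁻¹ = -3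
    rw [map_inv_eq_conj (isCharacter_coe α), (hq : (α : N → ℂ) u = -3), map_neg, map_ofNat]
  have hcentre : ∀ P : Sylow 3 N, ∃ z ∈ (P : Subgroup N), z ≠ 1 ∧ Q z ∧
      (∀ v ∈ (P : Subgroup N), v * z = z * v) ∧
      (∀ u ∈ (P : Subgroup N), u ≠ 1 → Q u → u = z ∨ u = z⁻¹) := by
    intro P
    obtain ⟨z, z', hzz, hs⟩ := Finset.card_eq_two.mp (hcount P)
    have hz : z ≠ 1 ∧ Q z := by
      have := Finset.mem_insert_self z {z'}
      rw [← hs, Finset.mem_filter] at this
      exact this.2
    have hmem : ∀ u : (P : Subgroup N), u ≠ 1 → Q u → u = z ∨ u = z' := fun u h1 hq => by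
      have : u ∈ ({z, z'} : Finset _) := hs ▸ Finset.mem_filter.mpr ⟨Finset.mem_univ u, h1, hq⟩
      simpa using this
    have hz3 : z ^ 3 = 1 := Subtype.ext (by simpa using S.cube_eq_one P z.2)
    have hne : z⁻¹ ≠ z := fun h => hz.1 <| by
      calc z = z * (z⁻¹ * z) := by group
        _ = z * (z * z) := by rw [h]
        _ = z ^ 3 := by rw [pow_succ', pow_two]
        _ = 1 := hz3
    have hz' : z' = z⁻¹ :=
      ((hmem _ (hinv P z hz.1 hz.2).1 (hinv P z hz.1 hz.2).2).resolve_left hne).symm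
    refine ⟨z, z.2, fun h => hz.1 (Subtype.ext h), hz.2, fun v hv => ?_, fun u hu h1 hq => ?_⟩
    · let w : (P : Subgroup N) := ⟨v, hv⟩
      have hcq : Q ((w * z * w⁻¹ : (P : Subgroup N)) : N) := by
        simpa using (hconj v z).mpr hz.2
      have hc1 : w * z * w⁻¹ ≠ 1 := fun h => hz.1 (by
        calc z = w⁻¹ * (w * z * w⁻¹) * w := by group
          _ = 1 := by rw [h]; group)
      rcases hmem _ hc1 hcq with h | h
      · have : w * z = z * w := by
          calc w * z = w * z * w⁻¹ * w := by group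
            _ = z * w := by rw [h]
        exact congrArg Subtype.val this
      · exfalso
        rw [hz'] at h
        have h2 : w ^ 2 * z * (w ^ 2)⁻¹ = z := by
          calc w ^ 2 * z * (w ^ 2)⁻¹ = w * (w * z * w⁻¹) * w⁻¹ := by simp [pow_two, mul_assoc]
            _ = w * z⁻¹ * w⁻¹ := by rw [h]
            _ = (w * z * w⁻¹)⁻¹ := by simp [mul_assoc]
            _ = z := by rw [h, inv_inv]
        have hc : Commute (w ^ 2) z := mul_inv_eq_iff_eq_mul.mp h2
        have h4 : (w ^ 2) ^ 2 = w := by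
          rw [← pow_mul, show 2 * 2 = 3 + 1 by norm_num, pow_succ,
            show w ^ 3 = 1 from Subtype.ext (by simpa using S.cube_eq_one P hv), one_mul]
        have hwz : Commute w z := h4 ▸ hc.pow_left 2
        exact hne (by rw [← h, hwz.eq, mul_inv_cancel_right])
    · rcases hmem ⟨u, hu⟩ (fun h => h1 (congrArg Subtype.val h)) hq with h | h
      · exact Or.inl (congrArg Subtype.val h)
      · exact Or.inr (by rw [hz'] at h; exact congrArg Subtype.val h)
  have hnc : ∀ P : Sylow 3 N, ¬ ∀ a ∈ (P : Subgroup N), ∀ b ∈ (P : Subgroup N), a * b = b * a := by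
    intro P hab
    letI : CommGroup (P : Subgroup N) :=
      { (inferInstance : Group (P : Subgroup N)) with
        mul_comm := fun a b => Subtype.ext (hab a a.2 b b.2) }
    obtain ⟨z, hzP, hz1, hzq, -, huniq⟩ := hcentre P
    set z₀ : (P : Subgroup N) := ⟨z, hzP⟩
    have hz0 : z₀ ≠ 1 := fun h => hz1 (congrArg Subtype.val h)
    obtain ⟨ψ, hψ⟩ := CommGroup.exists_apply_ne_one_of_hasEnoughRootsOfUnity (P : Subgroup N) ℂ hz0
    obtain ⟨n, hn⟩ := exists_nat_sum_hom (isCharacter_coe α) (P : Subgroup N).subtype ψ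
    have hz3 : z₀ ^ 3 = 1 := Subtype.ext (by simpa using S.cube_eq_one P hzP)
    have hne : z₀ ≠ z₀⁻¹ := fun h => hz0 <| by
      calc z₀ = z₀ * (z₀⁻¹ * z₀) := by group
        _ = z₀ * (z₀ * z₀) := by rw [← h]
        _ = z₀ ^ 3 := by rw [pow_succ', pow_two]
        _ = 1 := hz3
    have hv : ∀ k : (P : Subgroup N), (α : N → ℂ) k * conj ((ψ k : ℂˣ) : ℂ) =
        (if k = 1 then (6 : ℂ) else 0) + ((if k = z₀ then -3 * conj ((ψ k : ℂˣ) : ℂ) else 0) +
          if k = z₀⁻¹ then -3 * conj ((ψ k : ℂˣ) : ℂ) else 0) := by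
      intro k
      by_cases h1 : k = 1
      · subst h1; simp [hα1, Ne.symm hz0, Ne.symm (fun h => hz0 (inv_eq_one.mp h) : z₀⁻¹ ≠ 1)]
      · rcases (six_values S T ha hb ht (hord P k k.2 fun h => h1 (Subtype.ext h))).1 with h | h
        · have hk : k ≠ z₀ ∧ k ≠ z₀⁻¹ := by
            constructor <;> rintro rfl
            · rw [(hzq : (α : N → ℂ) z = -3)] at h; norm_num at h
            · rw [Subgroup.coe_inv, ((hinv P z₀ hz0 hzq).2 : (α : N → ℂ) (z₀ : N)⁻¹ = -3)] at h
              norm_num at h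
          simp [h, h1, hk.1, hk.2]
        · rcases huniq k k.2 (fun e => h1 (Subtype.ext e)) h with e | e
          · have e' : k = z₀ := Subtype.ext e
            subst e'
            simp [h, h1, hne]
          · have e' : k = z₀⁻¹ := Subtype.ext e
            subst e'
            have h' := h
            rw [Subgroup.coe_inv] at h'
            simp [h', h1, hne.symm]
    simp only [Subgroup.coe_subtype] at hn
    rw [Finset.sum_congr rfl fun k _ => hv k, Finset.sum_add_distrib, Finset.sum_add_distrib,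
      Finset.sum_ite_eq', Finset.sum_ite_eq', Finset.sum_ite_eq', if_pos (Finset.mem_univ _),
      if_pos (Finset.mem_univ _), if_pos (Finset.mem_univ _), S.card_sylow_three P] at hn
    set w : ℂ := ((ψ z₀ : ℂˣ) : ℂ) with hw
    have hw1 : w ≠ 1 := fun h => hψ (Units.ext h)
    have hw3 : w ^ 3 = 1 := by
      rw [hw, ← Units.val_pow_eq_pow_val, ← map_pow, hz3, map_one, Units.val_one]
    have hwi : ((ψ z₀⁻¹ : ℂˣ) : ℂ) = w ^ 2 := by
      rw [show z₀⁻¹ = z₀ ^ 2 from inv_eq_of_mul_eq_one_right (by rw [← pow_succ']; exact hz3),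
        map_pow, Units.val_pow_eq_pow_val]
    have hsum : 1 + w + w ^ 2 = 0 :=
      (mul_eq_zero.mp (by linear_combination hw3 : (w - 1) * (1 + w + w ^ 2) = 0)).resolve_left
        (sub_ne_zero.mpr hw1)
    have hcs : conj w + conj w ^ 2 = -1 := by
      have := congrArg conj hsum
      rw [map_add, map_add, map_one, map_pow, map_zero] at this
      linear_combination this
    rw [hwi, map_pow] at hn
    have h9 : (27 * n : ℕ) = 9 := by
      apply Nat.cast_injective (R := ℂ); push_cast
      linear_combination (-3 : ℂ) * hcs - hn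
    omega
  -- centralisers
  have hother : ∀ u : N, orderOf u = 3 → ¬ Q u →
      Nat.card (Subgroup.centralizer ({u} : Set N)) = 9 := by
    intro u hu hq
    have hu3 : u ^ 3 = 1 := by rw [← hu, pow_orderOf_eq_one]
    obtain ⟨h0, hβ, hθ⟩ := six_values S T ha hb ht hu
    have hα0 := h0.resolve_right hq
    have hp := T.pairs u u (regular_of_cube hu3) (regular_of_cube hu3)
    rw [hθ, hβ, hα0, ha, hb, ht] at hp
    have hm : Nat.card {q : N × N // q.1 * u * q.1⁻¹ * (q.2 * u * q.2⁻¹) = x} = 6237 := by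
      apply Nat.cast_injective (R := ℂ); rw [hp]; norm_num
    have hd := mul_centralizer_dvd_pairs u u x
    rw [← Fintype.card_subtype, ← Nat.card_eq_fintype_card, hm] at hd
    have hd' : Nat.card (Subgroup.centralizer ({u} : Set N)) ∣ 6048 :=
      S.card ▸ Subgroup.card_subgroup_dvd_card _
    -- `⟨u, z⟩` centralises `u`
    obtain ⟨P, hP⟩ := IsPGroup.exists_le_sylow (p := 3) (P := Subgroup.zpowers u)
      (IsPGroup.of_card (n := 1) (by rw [Nat.card_zpowers, hu, pow_one]))
    have huP : u ∈ (P : Subgroup N) := hP (Subgroup.mem_zpowers u)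
    obtain ⟨z, hzP, hz1, hzq, hzc, -⟩ := hcentre P
    set C := Subgroup.centralizer ({u} : Set N)
    have huC : u ∈ C := Subgroup.mem_centralizer_singleton_iff.mpr rfl
    have hzC : z ∈ C := Subgroup.mem_centralizer_singleton_iff.mpr (hzc u huP).symm
    have hK : ((Subgroup.zpowers u ⊔ Subgroup.zpowers z) : Subgroup N) ≤ C :=
      sup_le (Subgroup.zpowers_le.mpr huC) (Subgroup.zpowers_le.mpr hzC)
    have h9 : 9 ∣ Nat.card (Subgroup.zpowers u ⊔ Subgroup.zpowers z : Subgroup N) := by
      have hle : Subgroup.zpowers u ⊔ Subgroup.zpowers z ≤ (P : Subgroup N) :=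
        sup_le (Subgroup.zpowers_le.mpr huP) (Subgroup.zpowers_le.mpr hzP)
      have h27 := Subgroup.card_dvd_of_le hle
      rw [S.card_sylow_three P, show (27 : ℕ) = 3 ^ 3 by norm_num,
        Nat.dvd_prime_pow Nat.prime_three] at h27
      obtain ⟨i, hi, he⟩ := h27
      rw [he]
      rcases Nat.lt_or_ge i 2 with h | h
      · exfalso
        have hle' : Subgroup.zpowers u ≤ Subgroup.zpowers u ⊔ Subgroup.zpowers z := le_sup_left
        have heq : Subgroup.zpowers u = Subgroup.zpowers u ⊔ Subgroup.zpowers z :=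
          Subgroup.eq_of_le_of_card_ge hle' (by
            rw [he, Nat.card_zpowers, hu]
            calc 3 ^ i ≤ 3 ^ 1 := Nat.pow_le_pow_right (by norm_num) (by omega)
              _ = 3 := by norm_num)
        have hz : z ∈ Subgroup.zpowers u :=
          heq.symm ▸ Subgroup.mem_sup_right (Subgroup.mem_zpowers z)
        obtain ⟨k, hk⟩ := mem_powers_iff_mem_zpowers.mpr hz
        have hk' : u ^ (k % 3) = z := by rw [← hk, ← hu, pow_mod_orderOf]
        rcases (show k % 3 = 0 ∨ k % 3 = 1 ∨ k % 3 = 2 by omega) with e | e | e <;> rw [e] at hk'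
        · exact hz1 (by rw [← hk', pow_zero])
        · exact hq (by rw [← hk', pow_one] at hzq; exact hzq)
        · apply hq
          have : Q z⁻¹ := (hinv P ⟨z, hzP⟩ (fun h => hz1 (congrArg Subtype.val h)) hzq).2
          rw [← hk'] at this
          rwa [show (u ^ 2)⁻¹ = u from inv_eq_of_mul_eq_one_right (by rw [← pow_succ, hu3])] at this
      · exact Dvd.dvd.trans (by norm_num) (pow_dvd_pow 3 h)
    have h9C : 9 ∣ Nat.card C := h9.trans (Subgroup.card_dvd_of_le hK)
    obtain ⟨k, hk⟩ := h9C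
    rw [hk] at hd hd'
    have hk7 : k ∣ 77 := by
      obtain ⟨r, hr⟩ := hd
      exact ⟨k * r, by nlinarith [hr]⟩
    have hk672 : k ∣ 672 := by
      obtain ⟨r, hr⟩ := hd'
      exact ⟨r, by nlinarith [hr]⟩
    have hk7' : k ∣ 7 := (Nat.dvd_gcd hk7 hk672).trans (by norm_num)
    rcases (Nat.dvd_prime (by norm_num : Nat.Prime 7)).mp hk7' with rfl | rfl
    · rw [hk]
    · exfalso
      obtain ⟨r, hr⟩ := hd
      omega
  refine ⟨Q, hconj, fun P => ?_, hnc, fun P => S.card_sylow_three P,
    fun P u hu => S.cube_eq_one P hu, hother, fun z hz hq => ?_⟩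
  · obtain ⟨z, hzP, hz1, hzq, hzc, huniq⟩ := hcentre P
    refine ⟨z, hzP, hz1, hzc, fun u hu h1 => ⟨fun hQ => ?_, fun hm => ?_⟩⟩
    · rcases huniq u hu h1 hQ with rfl | rfl
      · exact Subgroup.mem_zpowers u
      · exact Subgroup.inv_mem _ (Subgroup.mem_zpowers z)
    · obtain ⟨k, hk⟩ := mem_powers_iff_mem_zpowers.mpr hm
      have hk' : z ^ (k % 3) = u := by rw [← hk, ← hord P z hzP hz1, pow_mod_orderOf]
      rcases (show k % 3 = 0 ∨ k % 3 = 1 ∨ k % 3 = 2 by omega) with e | e | e <;> rw [e] at hk'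
      · exact absurd (by rw [← hk', pow_zero]) h1
      · rw [← hk', pow_one]; exact hzq
      · rw [← hk', show z ^ 2 = z⁻¹ from
          (inv_eq_of_mul_eq_one_right (by rw [← pow_succ']; exact S.cube_eq_one P hzP)).symm]
        exact (hinv P ⟨z, hzP⟩ (fun h => hz1 (congrArg Subtype.val h)) hzq).2
  · -- a non-central element of the same Sylow subgroup
    have hz3 : z ^ 3 = 1 := by rw [← hz, pow_orderOf_eq_one]
    obtain ⟨P⟩ := (inferInstance : Nonempty (Sylow 3 N))
    obtain ⟨w, hw, hwq⟩ : ∃ w : N, orderOf w = 3 ∧ ¬ Q w := by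
      by_contra hcon
      push_neg at hcon
      have hall : ∀ u : (P : Subgroup N), u ≠ 1 → Q u := fun u h =>
        hcon u (hord P u u.2 fun e => h (Subtype.ext e))
      have h := hcount P
      rw [Finset.filter_congr (q := fun u => u ≠ 1) fun u _ => ⟨fun h => h.1, fun h => ⟨h, hall u h⟩⟩,
        Finset.filter_ne', Finset.card_erase_of_mem (Finset.mem_univ _), Finset.card_univ,
        ← Nat.card_eq_fintype_card, S.card_sylow_three P] at h
      omega
    have hw3 : w ^ 3 = 1 := by rw [← hw, pow_orderOf_eq_one]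
    obtain ⟨h0, hβ, hθ⟩ := six_values S T ha hb ht hw
    obtain ⟨-, hβ', hθ'⟩ := six_values S T ha hb ht hz
    have hp := T.pairs z w (regular_of_cube hz3) (regular_of_cube hw3)
    rw [hθ, hθ', hβ, hβ', h0.resolve_right hwq, (hq : (α : N → ℂ) z = -3), ha, hb, ht] at hp
    have hm : Nat.card {q : N × N // q.1 * z * q.1⁻¹ * (q.2 * w * q.2⁻¹) = x} = 6804 := by
      apply Nat.cast_injective (R := ℂ); rw [hp]; norm_num
    have hd := mul_centralizer_dvd_pairs z w x
    rw [← Fintype.card_subtype, ← Nat.card_eq_fintype_card, hm, hother w hw hwq] at hd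
    have h756 : Nat.card (Subgroup.centralizer ({z} : Set N)) ∣ 756 := by
      obtain ⟨r, hr⟩ := hd
      have h9 : 9 * 756 = 9 * (Nat.card (Subgroup.centralizer ({z} : Set N)) * r) := by
        rw [show 9 * 756 = 6804 by norm_num, hr]; ring
      exact ⟨r, by omega⟩
    have h7 : ¬ 7 ∣ Nat.card (Subgroup.centralizer ({z} : Set N)) := fun h => by
      obtain ⟨⟨c, hc⟩, hco⟩ := exists_prime_orderOf_dvd_card' 7 h
      rw [Subgroup.orderOf_mk] at hco
      obtain ⟨R, hR⟩ := IsPGroup.exists_le_sylow (p := 7) (P := Subgroup.zpowers c)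
        (IsPGroup.of_card (n := 1) (by rw [Nat.card_zpowers, hco, pow_one]))
      have hRc : Nat.card (R : Subgroup N) = 7 := by
        rw [Sylow.card_eq_multiplicity, S.card, show 6048 = 7 * 864 by norm_num,
          Nat.factorization_mul (by norm_num) (by norm_num), Finsupp.add_apply,
          (by norm_num : Nat.Prime 7).factorization_self,
          Nat.factorization_eq_zero_of_not_dvd (by norm_num : ¬ 7 ∣ 864)]
        norm_num
      have heq : Subgroup.zpowers c = (R : Subgroup N) :=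
        Subgroup.eq_of_le_of_card_ge hR (by rw [hRc, Nat.card_zpowers, hco])
      have hmem : z ∈ Subgroup.centralizer ((R : Subgroup N) : Set N) := by
        rw [← heq, Subgroup.mem_centralizer_iff]
        intro y hy
        obtain ⟨k, rfl⟩ := Subgroup.mem_zpowers_iff.mp hy
        exact ((show Commute c z from Subgroup.mem_centralizer_singleton_iff.mp hc).zpow_left k).eq
      have := Subgroup.orderOf_dvd_natCard _ hmem
      rw [(S.seven R).1, hz] at this
      norm_num at this
    rw [show (756 : ℕ) = 7 * 108 by norm_num] at h756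
    exact (Nat.Coprime.dvd_of_dvd_mul_left
      ((Nat.Prime.coprime_iff_not_dvd (by norm_num)).mpr h7).symm h756)

end CfsgLib.GTwoTwoUniq80
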