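import Cfsg.Agent.Blocks.PrimeGram.PrincipalData
import Cfsg.Agent.Blocks.PrimeGram.SieveTools
import Cfsg.Agent.Blocks.PrimeGram.SmallPrime

/-!
Products of two conjugates, and divisibility of their number by the orders of the centralisers.
-/

set_option autoImplicit false

namespace CfsgLib.GTwoTwoUniq80

open Cfsg CfsgLib.Chars CfsgLib.PrimeGram
open scoped ComplexConjugate Classical

variable {G : Type*} [Group G]

/-- The pairs of conjugators with prescribed product of a conjugate of `a` and one of `b`. -/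
theorem sum_pairs_two [Fintype G] (a b x : G) :
    ((Finset.univ.filter fun q : G × G => q.1 * a * q.1⁻¹ * (q.2 * b * q.2⁻¹) = x).card : ℂ) =
      ∑ χ : IrrCharacter G, (χ : G → ℂ) x⁻¹ * ((χ : G → ℂ) a * (χ : G → ℂ) b) *
        ((Nat.card G : ℂ) / (χ : G → ℂ) 1) := by
  have hreg : ∀ g : G, (if g = 1 then (1 : ℂ) else 0) =
      (Nat.card G : ℂ)⁻¹ * ∑ χ : IrrCharacter G, (χ : G → ℂ) 1 * (χ : G → ℂ) g := fun g => by
    rw [sum_irr_map_one_mul]
    split_ifs
    · rw [inv_mul_cancel₀ natCard_ne_zero]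
    · rw [mul_zero]
  calc ((Finset.univ.filter fun q : G × G => q.1 * a * q.1⁻¹ * (q.2 * b * q.2⁻¹) = x).card : ℂ)
      = ∑ s : G, ∑ t : G, if x⁻¹ * (s * a * s⁻¹) * (t * b * t⁻¹) = 1 then (1 : ℂ) else 0 := by
        rw [← Fintype.sum_prod_type', ← Finset.sum_boole]
        refine Finset.sum_congr rfl fun q _ => ?_
        refine if_congr ?_ rfl rfl
        rw [mul_assoc x⁻¹, inv_mul_eq_one]
        exact eq_comm
    _ = ∑ χ : IrrCharacter G, (Nat.card G : ℂ)⁻¹ * (χ : G → ℂ) 1 *
          ∑ s : G, ∑ t : G, (χ : G → ℂ) (x⁻¹ * (s * a * s⁻¹) * (t * b * t⁻¹)) := by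
        simp only [hreg, Finset.mul_sum]
        rw [Finset.sum_comm (γ := IrrCharacter G)]
        refine Finset.sum_congr rfl fun s _ => ?_
        rw [Finset.sum_comm]
        exact Finset.sum_congr rfl fun χ _ => Finset.sum_congr rfl fun t _ => by ring
    _ = _ := Finset.sum_congr rfl fun χ _ => by
        rw [Finset.sum_congr rfl fun s _ => sum_map_mul_conjugate χ _ b, ← Finset.sum_div,
          ← Finset.mul_sum, ← Finset.sum_mul, sum_map_mul_conjugate χ _ a]
        have h1 := map_one_ne_zero χ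
        have h2 : (Nat.card G : ℂ) ≠ 0 := natCard_ne_zero
        field_simp

/-- A set invariant under a subgroup acting freely on the right has cardinality divisible by its
order. -/
theorem card_dvd_of_mul_mem [Finite G] (H : Subgroup G) (s : Set G)
    (hs : ∀ q ∈ s, ∀ h ∈ H, q * h ∈ s) : Nat.card H ∣ Nat.card s := by
  have e : s = QuotientGroup.mk ⁻¹' (QuotientGroup.mk '' s : Set (G ⧸ H)) := by
    refine Set.Subset.antisymm (Set.subset_preimage_image _ _) ?_
    rintro q ⟨r, hr, hrq⟩
    have := hs r hr _ (QuotientGroup.eq.mp hrq)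
    rwa [mul_inv_cancel_left] at this
  rw [e, Nat.card_congr (QuotientGroup.preimageMkEquivSubgroupProdSet H _), Nat.card_prod]
  exact dvd_mul_right _ _

/-- The number of pairs is a multiple of both centraliser orders. -/
theorem mul_centralizer_dvd_pairs [Fintype G] (a b x : G) :
    Nat.card (Subgroup.centralizer ({a} : Set G)) * Nat.card (Subgroup.centralizer ({b} : Set G)) ∣
      (Finset.univ.filter fun q : G × G => q.1 * a * q.1⁻¹ * (q.2 * b * q.2⁻¹) = x).card := by
  have h := card_dvd_of_mul_mem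
    ((Subgroup.centralizer ({a} : Set G)).prod (Subgroup.centralizer ({b} : Set G)))
    (↑(Finset.univ.filter fun q : G × G => q.1 * a * q.1⁻¹ * (q.2 * b * q.2⁻¹) = x))
    (fun q hq h hh => by
      rw [Finset.mem_coe, Finset.mem_filter] at hq ⊢
      rw [Subgroup.mem_prod, Subgroup.mem_centralizer_singleton_iff,
        Subgroup.mem_centralizer_singleton_iff] at hh
      have key : ∀ g c y : G, c * y = y * c → g * c * y * (g * c)⁻¹ = g * y * g⁻¹ := fun g c y hc => by
        rw [mul_assoc g c y, hc]; group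
      exact ⟨Finset.mem_univ _, by
        rw [Prod.fst_mul, Prod.snd_mul, key _ _ _ hh.1, key _ _ _ hh.2]; exact hq.2⟩)
  rw [Nat.card_congr (Subgroup.prodEquiv _ _).toEquiv, Nat.card_prod] at h
  simpa [Set.ncard_coe_finset] using h

/-- No product of two involutions conjugate to `s` and `t` is `x` if none of them inverts `x`. -/
theorem pairs_eq_empty [Fintype G] {s t x : G} (hs : s * s = 1) (ht : t * t = 1)
    (h : ∀ g : G, g * s * g⁻¹ * x * (g * s * g⁻¹)⁻¹ ≠ x⁻¹) :
    (Finset.univ.filter fun q : G × G => q.1 * s * q.1⁻¹ * (q.2 * t * q.2⁻¹) = x) = ∅ := by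
  refine Finset.filter_eq_empty_iff.mpr fun q _ hq => h q.1 ?_
  set a := q.1 * s * q.1⁻¹ with ha
  set b := q.2 * t * q.2⁻¹ with hb
  have haa : a * a = 1 := by
    rw [ha, show q.1 * s * q.1⁻¹ * (q.1 * s * q.1⁻¹) = q.1 * (s * s) * q.1⁻¹ by group, hs]; group
  have hbb : b * b = 1 := by
    rw [hb, show q.2 * t * q.2⁻¹ * (q.2 * t * q.2⁻¹) = q.2 * (t * t) * q.2⁻¹ by group, ht]; group
  rw [← hq, mul_inv_rev a b, inv_eq_of_mul_eq_one_right haa, inv_eq_of_mul_eq_one_right hbb,
    ← mul_assoc a a b, haa, one_mul]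

/-- An element at which a nonprincipal character of a simple group has absolute value equal to its
degree is trivial. -/
theorem eq_one_of_norm_eq_degree [Finite G] [IsSimpleGroup G] (hG : ¬ IsMulCommutative G)
    {χ : IrrCharacter G} (hne : χ ≠ oneChar G) {u : G}
    (hn : ‖(χ : G → ℂ) u‖ = ‖(χ : G → ℂ) 1‖) : u = 1 := by
  obtain ⟨n, ρ, hρ, hρχ⟩ := χ.2
  have hn1 : (χ : G → ℂ) 1 = (n : ℂ) := by rw [← hρχ, Representation.char_one]; simp
  have hn0 : n ≠ 0 := fun e => map_one_ne_zero χ (by rw [hn1, e]; simp)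
  have hc' := rep_eq_smul_of_norm_character_eq ρ (g := u) hn0
    (by rw [hρχ, hn, hn1, Complex.norm_natCast])
  have hcentral : u ∈ Subgroup.center G := by
    refine Subgroup.mem_center_iff.mpr fun g => ?_
    have : g * u * g⁻¹ * u⁻¹ = 1 := by
      refine eq_one_of_value_eq_degree hne ?_
      rw [← hρχ]
      show LinearMap.trace ℂ _ (ρ _) = LinearMap.trace ℂ _ (ρ 1)
      have hcen : ρ (g * u * g⁻¹) = ρ u := by
        rw [map_mul, map_mul, hc', mul_smul_comm, mul_one, smul_mul_assoc, ← map_mul, mul_inv_cancel,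
          map_one]
      rw [map_mul, hcen, ← map_mul, mul_inv_cancel]
    calc g * u = g * u * g⁻¹ * u⁻¹ * (u * g) := by group
      _ = u * g := by rw [this, one_mul]
  rcases (Subgroup.center G).normal_of_characteristic.eq_bot_or_eq_top with e | e
  · exact Subgroup.mem_bot.mp (e ▸ hcentral)
  · exact absurd ⟨⟨fun s t => (Subgroup.mem_center_iff.1 (e ▸ Subgroup.mem_top t) s)⟩⟩ hG

end CfsgLib.GTwoTwoUniq80
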